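import Cfsg.Agent.ChevGrp.WeightExist
import Cfsg.Agent.ModRep.Count
import Mathlib.RingTheory.RootsOfUnity.AlgebraicallyClosed
import Mathlib.GroupTheory.FiniteAbelian.Duality
import Mathlib.FieldTheory.IsAlgClosed.AlgebraicClosure

/-!
Steinberg's count of semisimple classes when the torus map is injective (owner: helper32).
-/

set_option linter.style.haveILetI false

namespace Cfsg.Agent.ChevGrp

open Cfsg.Lie
open scoped MatrixGroups
open ModRep (IsInv Irr)

universe u

theorem card_units_char (F k : Type*) [Field F] [Fintype F] [Field k] [IsAlgClosed k] (p : ℕ)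
    [Fact p.Prime] [CharP F p] [CharP k p] :
    Nat.card {y : (Fˣ →* kˣ) × Bool // y.2 = true → y.1 = 1} = Fintype.card F := by
  classical
  have hq : 1 < Fintype.card F := Fintype.one_lt_card
  have hne : ∀ n : ℕ, n ∣ Fintype.card F - 1 → NeZero ((n : ℕ) : k) := by
    intro n hn
    refine ⟨fun h => ?_⟩
    have hpn := (CharP.cast_eq_zero_iff k p n).1 h
    obtain ⟨m, hm0, hm⟩ := FiniteField.card F p
    have h1 : p ∣ Fintype.card F := hm ▸ dvd_pow_self p m.ne_zero
    have h2 := Nat.dvd_sub h1 (hpn.trans hn)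
    rw [show Fintype.card F - (Fintype.card F - 1) = 1 by omega] at h2
    exact (Fact.out : p.Prime).not_dvd_one h2
  haveI : NeZero ((Monoid.exponent Fˣ : ℕ) : k) := hne _ (by
    rw [← Fintype.card_units, ← Nat.card_eq_fintype_card]
    exact Group.exponent_dvd_nat_card)
  haveI : HasEnoughRootsOfUnity k (Monoid.exponent Fˣ) := inferInstance
  have hc : Nat.card (Fˣ →* kˣ) = Nat.card Fˣ := CommGroup.card_monoidHom_of_hasEnoughRootsOfUnity Fˣ k
  haveI : Finite (Fˣ →* kˣ) := Nat.finite_of_card_ne_zero (by rw [hc]; exact Nat.card_pos.ne')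
  have e : {y : (Fˣ →* kˣ) × Bool // y.2 = true → y.1 = 1} ≃ Option (Fˣ →* kˣ) :=
    { toFun := fun y => if y.1.2 = true then none else some y.1.1
      invFun := fun o => o.elim ⟨(1, true), fun _ => rfl⟩ fun f => ⟨(f, false), by simp⟩
      left_inv := by
        rintro ⟨⟨f, b⟩, h⟩
        cases b
        · simp
        · have hf : f = 1 := h rfl
          subst hf
          simp
      right_inv := fun o => by cases o <;> simp }
  rw [Nat.card_congr e, Finite.card_option, hc, Nat.card_units, Nat.card_eq_fintype_card]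
  omega

namespace Sys

variable {D : ChevalleyDatum} {F : Type*} [Field F] [Fintype F] {G : Type u} [Group G] [Finite G]
  (S : Sys D F G) {len : ℕ → ℕ}

theorem tau_single (hS : Rules D F) (hR : RootTable D len) (hM : S.HMul) (i : Fin D.rank) (c : Fˣ) :
    S.tau hS hR hM (Pi.mulSingle i c) = S.hEl (D.simple i) c := by
  rw [tau, MonoidHom.noncommPiCoprod_mulSingle]
  rfl

theorem card_regular (hS : Rules D F) (hR : RootTable D len) (hM : S.HMul) (hG : S.Gbar = ⊤)
    (p : ℕ) [Fact p.Prime] [CharP F p] (hinj : Function.Injective (S.tau hS hR hM)) :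
    Nat.card {c : ConjClasses G // ∃ g : G, ConjClasses.mk g = c ∧ ¬ p ∣ orderOf g} =
      Fintype.card F ^ D.rank := by
  classical
  let k := AlgebraicClosure (ZMod p)
  haveI : CharP k p := charP_of_injective_algebraMap (algebraMap (ZMod p) k).injective p
  let Y := {y : (Fˣ →* kˣ) × Bool // y.2 = true → y.1 = 1}
  have hY : Nat.card Y = Fintype.card F := card_units_char F k p
  haveI : Finite Y := Nat.finite_of_card_ne_zero (by rw [hY]; exact Fintype.card_ne_zero)
  haveI : Fintype Y := Fintype.ofFinite Y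
  let Wt := Fin D.rank → Y
  let e : (Fin D.rank → Fˣ) ≃* (S.tau hS hR hM).range := MonoidHom.ofInjective hinj
  have hrange : (S.tau hS hR hM).range = S.Hbar := S.tau_range hS hR hM
  let χ : Wt → G → k := fun x g =>
    if h : g ∈ (S.tau hS hR hM).range then ∏ i, (((x i).1.1 (e.symm ⟨g, h⟩ i) : kˣ) : k) else 0
  let K : Wt → Finset (Fin D.rank) := fun x => Finset.univ.filter fun i => (x i).1.2 = true
  have hval : ∀ (x : Wt) (c : Fin D.rank → Fˣ),
      χ x (S.tau hS hR hM c) = ∏ i, (((x i).1.1 (c i) : kˣ) : k) := fun x c => by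
    have h : S.tau hS hR hM c ∈ (S.tau hS hR hM).range := ⟨c, rfl⟩
    have e1 : e.symm ⟨_, h⟩ = c := e.injective (Subtype.ext (by rw [e.apply_symm_apply]; rfl))
    simp only [χ, dif_pos h, e1]
  have hχ : ∀ x, S.IsChar (χ x) := fun x => by
    refine ⟨?_, fun a ha b hb => ?_⟩
    · rw [← map_one (S.tau hS hR hM), hval]
      simp
    · rw [← hrange] at ha hb
      obtain ⟨c, rfl⟩ := ha
      obtain ⟨d, rfl⟩ := hb
      rw [← map_mul, hval, hval, hval, ← Finset.prod_mul_distrib]
      simp
  have hh : ∀ (x : Wt) (i : Fin D.rank) (c : Fˣ), χ x (S.hEl (D.simple i) c) = (((x i).1.1 c : kˣ) : k) := by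
    intro x i c
    rw [← S.tau_single hS hR hM i c, hval,
      Finset.prod_eq_single i (fun j _ hj => by simp [Pi.mulSingle_eq_of_ne hj]) (by simp),
      Pi.mulSingle_eq_same]
  have hJ : ∀ (x : Wt), ∀ i ∈ K x, S.InJ (χ x) i := fun x i hi c hc => by
    rw [show S.hEl (D.simple i) c = S.hEl (D.simple i) ((Units.mk0 c hc : Fˣ) : F) from rfl, hh,
      (x i).2 (Finset.mem_filter.1 hi).2]
    simp
  choose z hz using fun x : Wt => S.exists_weight_vec hS hR hM p (hχ x) (hJ x)
  choose U hU M hM' hzU hirr hz0 using fun x : Wt =>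
    ModRep.exists_simple_quotient (Brauer.funRep k G) (hz x).1
  let V : Wt → Type u := fun x => ↥(U x) ⧸ M x
  letI : ∀ x, AddCommGroup (V x) := fun x => inferInstanceAs (AddCommGroup (↥(U x) ⧸ M x))
  letI : ∀ x, Module k (V x) := fun x => inferInstanceAs (Module k (↥(U x) ⧸ M x))
  haveI : ∀ x, FiniteDimensional k (V x) := fun x => inferInstanceAs (FiniteDimensional k (↥(U x) ⧸ M x))
  let ρ : ∀ x, Representation k G (V x) := fun x => ModRep.quotRep (ModRep.subRep _ (hU x)) (hM' x)
  have hw : ∀ x, S.IsWeight (ρ x) (χ x) (K x) (Submodule.Quotient.mk ⟨z x, hzU x⟩) := fun x =>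
    IsWeight.map S (φ := (M x).mkQ) ((hz x).subRep S (hU x) (hzU x)) (fun _ _ => rfl) (hz0 x)
  have hne : ∀ x, Nontrivial (V x) := fun x => ⟨⟨_, _, (hw x).1⟩⟩
  have hnoiso : ∀ x y, x ≠ y → ∀ φ : V x →ₗ[k] V y, (∀ g v, φ (ρ x g v) = ρ y g (φ v)) → φ = 0 := by
    intro x y hxy φ hφ
    by_contra h0
    haveI := hne y
    have hinj' := ModRep.ker_intertwiner (hirr x) hφ h0
    obtain ⟨h1, h2⟩ := S.weight_unique (ρ y) hS hR hM hG p (hirr y)
      (IsWeight.map S (hw x) hφ (fun e => (hw x).1 (hinj' (by rw [e, map_zero])))) (hw y)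
    refine hxy (funext fun i => Subtype.ext (Prod.ext ?_ ?_))
    · refine MonoidHom.ext fun c => Units.ext ?_
      rw [← hh x i c, ← hh y i c]
      exact h1 _ (S.hEl_simple_mem i c.ne_zero)
    · have h3 : i ∈ K x ↔ i ∈ K y := by rw [h2]
      simp only [K, Finset.mem_filter, Finset.mem_univ, true_and] at h3
      exact Bool.eq_iff_iff.2 h3
  have hall : ∀ (W : Type u) [AddCommGroup W] [Module k W] [FiniteDimensional k W]
      (σ : Representation k G W), Irr σ → Nontrivial W →
      ∃ (x : Wt) (e : W →ₗ[k] V x), Function.Injective e ∧ ∀ g v, e (σ g v) = ρ x g (e v) := by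
    intro W _ _ _ σ hσ hW
    obtain ⟨χ', K', w, hw'⟩ := S.exists_weight σ hS hR hM p
    let y : Fin D.rank → (Fˣ →* kˣ) := fun i => MonoidHom.toHomUnits
      { toFun := fun c => χ' (S.hEl (D.simple i) c)
        map_one' := by rw [Units.val_one, S.hEl_one hR (hR.simple_lt i i.2), hw'.2.1.1]
        map_mul' := fun c d => by
          rw [Units.val_mul, ← hM i c d c.ne_zero d.ne_zero,
            hw'.2.1.2 _ (S.hEl_simple_mem i c.ne_zero) _ (S.hEl_simple_mem i d.ne_zero)] }
    let x : Wt := fun i => ⟨(y i, decide (i ∈ K')), fun h => MonoidHom.ext fun c => Units.ext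
      (hw'.2.2.2.2.1 i (of_decide_eq_true h) c c.ne_zero)⟩
    have hK : K x = K' := by
      ext i
      simp [K, x]
    have hχx : ∀ a ∈ S.Hbar, χ' a = χ x a := by
      intro a ha
      rw [← hrange] at ha
      obtain ⟨c, rfl⟩ := ha
      induction c using Pi.mulSingle_induction with
      | one => rw [map_one, hw'.2.1.1, (hχ x).1]
      | mul f g hf hg =>
        have hm : ∀ c, S.tau hS hR hM c ∈ S.Hbar := fun c => hrange ▸ ⟨c, rfl⟩
        rw [map_mul, hw'.2.1.2 _ (hm f) _ (hm g), (hχ x).2 _ (hm f) _ (hm g), hf, hg]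
      | mulSingle i c =>
        rw [S.tau_single hS hR hM i c, hh]
        rfl
    haveI := hne x
    obtain ⟨f, hf, hf'⟩ := S.exists_intertwiner σ (ρ x) hS hR hM hG p hσ (hirr x) hχx hw'
      (hK ▸ hw x)
    exact ⟨x, f, hf, hf'⟩
  rw [ModRep.card_regular_classes (p := p) ρ hne hirr hnoiso hall, ← Nat.card_eq_fintype_card, Nat.card_fun,
    hY, Nat.card_fin]

end Sys

open Classical in
/-- The system of the matrix group itself. -/
noncomputable def groupSys {D : ChevalleyDatum} {F : Type*} [Field F] (hS : Rules D F) :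
    Sys D F ↥(D.group F) where
  x r t := if h : xGL D F r t ∈ D.group F then ⟨xGL D F r t, h⟩ else 1
  θ := (D.group F).subtype
  θ_x r hr t := by
    have h : xGL D F r t ∈ D.group F := by
      rw [group_eq hS]
      exact Subgroup.subset_closure ⟨r, hr, t, rfl⟩
    simp only [dif_pos h]
    exact val_xGL hS r t
  x_add r hr t u := by
    have h : ∀ t, xGL D F r t ∈ D.group F := fun t => by
      rw [group_eq hS]
      exact Subgroup.subset_closure ⟨r, hr, t, rfl⟩
    simp only [dif_pos (h _)]
    exact Subtype.ext ((glSys hS).x_add r hr t u)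
  comm r hr s hs h1 h2 t u := by
    have h : ∀ r t, xGL D F r t ∈ D.group F := fun r t => by
      by_cases hr : r < D.nroots
      · rw [group_eq hS]
        exact Subgroup.subset_closure ⟨r, hr, t, rfl⟩
      · have : xGL D F r t = 1 := Units.ext (by rw [val_xGL hS, ChevalleyDatum.x, dif_neg hr, Units.val_one])
        rw [this]
        exact one_mem _
    simp only [dif_pos (h _ _)]
    refine Subtype.ext ?_
    simp only [Subgroup.coe_mul, SubmonoidClass.coe_list_prod, List.map_map, Function.comp_def]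
    exact (glSys hS).comm r hr s hs h1 h2 t u

/-- Steinberg's count of semisimple classes. -/
theorem card_semisimple_classes {D : ChevalleyDatum} {F : Type*} [Field F] [Fintype F] (hS : Rules D F)
    (p : ℕ) [Fact p.Prime] [CharP F p] (hker : Nat.card (rootKer D F) = 1) :
    Nat.card {c : ConjClasses ↥(D.group F) // ∃ g : ↥(D.group F), ConjClasses.mk g = c ∧ ¬ p ∣ orderOf g} =
      Fintype.card F ^ D.rank := by
  obtain ⟨len, hR⟩ := hS.root
  set S := groupSys hS with hSdef
  have hθ : Function.Injective S.θ := (D.group F).subtype_injective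
  have hx : ∀ r < D.nroots, ∀ t : F, S.θ (S.x r t) = (glSys hS).x r t := fun r hr t =>
    Units.ext ((S.θ_x r hr t).trans (val_xGL hS r t).symm)
  have hn : ∀ r < D.nroots, ∀ t : F, S.θ (S.nEl r t) = (glSys hS).nEl r t := fun r hr t => by
    simp only [Sys.nEl, map_mul, hx r hr, hx _ (hR.neg_lt r hr)]
  have hM : S.HMul := fun i c d hc hd => hθ (by
    simp only [Sys.hEl, map_mul, hn _ (hR.simple_lt i i.2)]
    exact glSys_HMul hS hR i c d hc hd)
  have hG : S.Gbar = ⊤ := by
    refine Subgroup.map_injective hθ ?_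
    rw [Sys.Gbar, MonoidHom.map_closure]
    have e : (⊤ : Subgroup ↥(D.group F)).map S.θ = D.group F := by
      show (⊤ : Subgroup ↥(D.group F)).map (D.group F).subtype = _
      rw [← MonoidHom.range_eq_map, Subgroup.range_subtype]
    rw [e]
    refine Eq.trans ?_ (group_eq hS).symm
    rw [Sys.Gbar]
    congr 1
    ext g
    constructor
    · rintro ⟨_, ⟨r, hr, t, rfl⟩, rfl⟩
      exact ⟨r, hr, t, hx r hr t⟩
    · rintro ⟨r, hr, t, rfl⟩
      exact ⟨_, ⟨r, hr, t, rfl⟩, hx r hr t⟩
  refine S.card_regular hS hR hM hG p ?_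
  rw [← MonoidHom.ker_eq_bot_iff, eq_bot_iff]
  intro c hc
  have h1 : c ∈ rootKer D F := (S.θ_tau_eq_one_iff hS hR hM c).1 (by rw [MonoidHom.mem_ker.1 hc, map_one])
  rwa [Subgroup.card_eq_one.1 hker] at h1

end Cfsg.Agent.ChevGrp
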