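import Cfsg.Agent.ChevGrp.WeightSpan
import Cfsg.Agent.Brauer.GreenSocle

/-!
Every weight occurs in an irreducible representation (owner: helper32).
-/

set_option linter.style.haveILetI false

namespace Cfsg.Agent.ChevGrp

open Cfsg.Lie
open scoped MatrixGroups
open ModRep (IsInv Irr)

namespace Sys

section Levi

variable {D : ChevalleyDatum} {F : Type*} [Field F] {G : Type*} [Group G] (S : Sys D F G)
  {len : ℕ → ℕ}

/-- The subgroup generated by the `h_p(t)` with `p` among the fundamental roots of `L`. -/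
def HLev (L : Finset (Fin D.rank)) : Subgroup G :=
  Subgroup.closure {g | ∃ i ∈ L, ∃ c : F, c ≠ 0 ∧ g = S.hEl (D.simple i) c}

theorem hEl_mem_HLev {L : Finset (Fin D.rank)} {i : Fin D.rank} (hi : i ∈ L) {c : F} (hc : c ≠ 0) :
    S.hEl (D.simple i) c ∈ S.HLev L :=
  Subgroup.subset_closure ⟨i, hi, c, hc, rfl⟩

theorem HLev_le (L : Finset (Fin D.rank)) : S.HLev L ≤ S.Hbar := by
  rw [HLev, Subgroup.closure_le]
  rintro _ ⟨i, -, c, hc, rfl⟩
  exact S.hEl_simple_mem i hc

theorem nI_conj_HLev (hS : Rules D F) (hR : RootTable D len) {L : Finset (Fin D.rank)} {j : Fin D.rank}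
    (hj : j ∈ L) {h : G} (hh : h ∈ S.HLev L) : S.nI j * h * (S.nI j)⁻¹ ∈ S.HLev L := by
  refine Subgroup.closure_induction ?_ ?_ ?_ ?_ hh
  · rintro _ ⟨i, hi, c, hc, rfl⟩
    have hp := hR.simple_lt j j.2
    obtain ⟨a, ha, hga⟩ := S.conjP_Hbar hS hR (S.hEl_simple_mem i hc)
    have e := ConjP.nEl hR ha hga hp 1
    rw [act_nil, mul_one] at e
    have e0 := e.trans (S.nEl_eq hR hp _)
    have e' : S.hEl (D.simple i) c * (S.nI j)⁻¹ * (S.hEl (D.simple i) c)⁻¹ =
        (S.nI j)⁻¹ * (S.hEl (D.simple j) (a (D.simple j)))⁻¹ := by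
      have := congrArg (·⁻¹) e0
      simpa [mul_assoc, nI] using this
    have e'' : S.nI j * S.hEl (D.simple i) c * (S.nI j)⁻¹ =
        (S.hEl (D.simple j) (a (D.simple j)))⁻¹ * S.hEl (D.simple i) c := by
      have := congrArg (fun z => S.nI j * z * S.hEl (D.simple i) c) e'
      simpa [mul_assoc] using this
    rw [e'']
    exact mul_mem (inv_mem (S.hEl_mem_HLev hj (right_ne_zero_of_mul_eq_one (ha _ hp))))
      (S.hEl_mem_HLev hi hc)
  · simp [one_mem]
  · intro a b _ _ ha hb
    have := mul_mem ha hb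
    simpa [mul_assoc] using this
  · intro a _ ha
    have := inv_mem ha
    simpa [mul_assoc] using this

theorem nI_sq_mem_HLev (hR : RootTable D len) {L : Finset (Fin D.rank)} {j : Fin D.rank}
    (hj : j ∈ L) : S.nI j * S.nI j ∈ S.HLev L := by
  rw [S.nI_sq hR j]
  exact inv_mem (S.hEl_mem_HLev hj (neg_ne_zero.2 one_ne_zero))

theorem exists_reduced_HLev (hS : Rules D F) (hR : RootTable D len) {L : Finset (Fin D.rank)}
    (w : List (Fin D.rank)) (hw : ∀ i ∈ w, i ∈ L) :
    ∃ h ∈ S.HLev L, ∃ v : List (Fin D.rank), (∀ i ∈ v, i ∈ L) ∧ Reduced D v ∧ v.length ≤ w.length ∧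
      S.nW w = h * S.nW v := by
  induction hn : w.length using Nat.strong_induction_on generalizing w with
  | _ n ih =>
    cases w with
    | nil => exact ⟨1, one_mem _, [], by simp, reduced_nil D hR, by simp, by simp⟩
    | cons i w =>
      simp only [List.length_cons] at hn
      have hiL := hw i List.mem_cons_self
      obtain ⟨h, hh, v, hvL, hv, hvl, e⟩ := ih w.length (by omega) w (fun j hj => hw j (List.mem_cons_of_mem _ hj)) rfl
      have e' : S.nW (i :: w) = (S.nI i * h * (S.nI i)⁻¹) * S.nW (i :: v) := by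
        rw [nW_cons, nW_cons, e]
        simp [mul_assoc]
      rcases hR.sign _ (hR.act_lt v.reverse (hR.simple_lt i i.2)) with hp | hq
      · exact ⟨_, S.nI_conj_HLev hS hR hiL hh, i :: v,
          fun j hj => (List.mem_cons.1 hj).elim (fun e => e ▸ hiL) (hvL j), hR.reduced_cons hv hp,
          by simp; omega, e'⟩
      · obtain ⟨a, j, b, rfl, hj⟩ := hR.scan_word v _ (hR.simple_pos i) hq
        obtain ⟨c, hc, hca⟩ := S.conjP_nW hS hR a
        have hp := hR.simple_lt i i.2
        have hpj := hR.simple_lt j j.2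
        have e2 := ConjP.nEl hR hc hca hpj 1
        rw [show act D a (D.simple j) = D.simple i by rw [← hj, hR.act_act_reverse a hp], mul_one] at e2
        have e0 := e2.trans (S.nEl_eq hR hp _)
        have e1 : S.nW a * S.nI j = S.hEl (D.simple i) (c (D.simple j)) * S.nI i * S.nW a := by
          have := congrArg (· * S.nW a) e0
          simpa [nI, mul_assoc] using this
        obtain ⟨h3, hh3, v3, hv3L, hv3, hv3l, e3⟩ := ih (a ++ b).length (by simp at hvl ⊢; omega) (a ++ b)
          (fun x hx => hvL x (by simp only [List.mem_append, List.mem_cons] at hx ⊢; tauto)) rfl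
        have hhE := S.hEl_mem_HLev hiL (c := c (D.simple j)) (right_ne_zero_of_mul_eq_one (hc _ hpj))
        refine ⟨_, mul_mem (mul_mem (S.nI_conj_HLev hS hR hiL hh)
          (mul_mem (S.nI_conj_HLev hS hR hiL hhE) (S.nI_sq_mem_HLev hR hiL))) hh3, v3, hv3L, hv3,
          by simp at hv3l hvl ⊢; omega, ?_⟩
        rw [e', S.nW_cons i, nW_append, nW_cons, ← mul_assoc (S.nW a), e1]
        rw [nW_append] at e3
        rw [show ∀ X A H : G, X * (S.nI i * (H * S.nI i * A * S.nW b)) =
          X * (S.nI i * H * (S.nI i)⁻¹ * (S.nI i * S.nI i)) * (A * S.nW b) from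
          fun X A H => by group, e3]
        simp [mul_assoc]

theorem nW_mem_HLev_of_act (hS : Rules D F) (hR : RootTable D len) {L : Finset (Fin D.rank)}
    {w : List (Fin D.rank)} (hw : ∀ i ∈ w, i ∈ L) (h : ∀ r < D.nroots, act D w r = r) :
    S.nW w ∈ S.HLev L := by
  obtain ⟨h2, hh2, v, -, hv, -, e⟩ := S.exists_reduced_HLev hS hR w hw
  have ha := S.act_eq_of_eq hS hR (one_mem _) (S.HLev_le L hh2) (by rw [one_mul]; exact e)
  have h0 : invCount D v = 0 := by
    rw [invCount_eq, Finset.card_eq_zero, Finset.eq_empty_iff_forall_notMem]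
    intro r hr
    rw [mem_invFin] at hr
    have h3 := hr.2
    rw [← ha r hr.1.1, h r hr.1.1] at h3
    exact hR.not_pos_and_neg hr.1 h3
  rw [show invCount D v = v.length from hv, List.length_eq_zero_iff] at h0
  rw [e, h0, nW_nil, mul_one]
  exact hh2

theorem nW_congr_HLev (hS : Rules D F) (hR : RootTable D len) {L : Finset (Fin D.rank)}
    {v w : List (Fin D.rank)} (hv : ∀ i ∈ v, i ∈ L) (hw : ∀ i ∈ w, i ∈ L)
    (h : ∀ r < D.nroots, act D v r = act D w r) : ∃ c ∈ S.HLev L, S.nW v = c * S.nW w := by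
  have hmem : ∀ u : List (Fin D.rank), (∀ i ∈ u, i ∈ L) → (∀ r < D.nroots, act D u r = act D w r) →
      S.nW (u ++ w.reverse) ∈ S.HLev L := fun u hu hu' => by
    refine S.nW_mem_HLev_of_act hS hR (fun i hi => ?_) fun r hr => ?_
    · rcases List.mem_append.1 hi with hi | hi
      · exact hu i hi
      · exact hw i (List.mem_reverse.1 hi)
    · rw [act_append, hu' _ (hR.act_lt _ hr), hR.act_act_reverse w hr]
  refine ⟨_, mul_mem (hmem v hv h) (inv_mem (hmem w hw fun r _ => rfl)), ?_⟩
  rw [nW_append, nW_append]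
  group

theorem IsChar.eq_one_of_HLev {k : Type*} [Field k] {χ : G → k} (hχ : S.IsChar χ)
    {L : Finset (Fin D.rank)} (hL : ∀ i ∈ L, S.InJ χ i) {g : G} (hg : g ∈ S.HLev L) : χ g = 1 := by
  suffices h : g ∈ S.Hbar ∧ χ g = 1 from h.2
  refine Subgroup.closure_induction ?_ ?_ ?_ ?_ hg
  · rintro _ ⟨i, hi, c, hc, rfl⟩
    exact ⟨S.hEl_simple_mem i hc, hL i hi c hc⟩
  · exact ⟨one_mem _, hχ.1⟩
  · intro a b _ _ ha hb
    exact ⟨mul_mem ha.1 hb.1, by rw [hχ.2 _ ha.1 _ hb.1, ha.2, hb.2, one_mul]⟩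
  · intro a _ ha
    exact ⟨inv_mem ha.1, by rw [hχ.inv S ha.1, ha.2, inv_one]⟩

end Levi

variable {D : ChevalleyDatum} {F : Type*} [Field F] [Fintype F] {G : Type*} [Group G] [Finite G]
  (S : Sys D F G) {len : ℕ → ℕ} {k : Type*} [Field k]

/-- The semi-invariant function on `B`. -/
noncomputable def baseVec (ψ : G → k) : G → k :=
  letI := Classical.decEq G
  letI := Fintype.ofFinite ↥S.Hbar
  letI := Fintype.ofFinite ↥S.Ubar
  ∑ h : ↥S.Hbar, ∑ u : ↥S.Ubar, (ψ h)⁻¹ • Brauer.funRep k G ((h : G) * u) (Pi.single 1 1)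

theorem baseVec_spec (hS : Rules D F) (hR : RootTable D len) {ψ : G → k} (hψ : S.IsChar ψ) :
    S.IsFix (Brauer.funRep k G) (S.baseVec ψ) ∧ S.IsEig (Brauer.funRep k G) ψ (S.baseVec ψ) ∧
      S.baseVec ψ 1 = 1 ∧ ∀ x, S.baseVec ψ x ≠ 0 → x ∈ S.Bbar := by
  classical
  haveI := Fintype.ofFinite ↥S.Hbar
  haveI := Fintype.ofFinite ↥S.Ubar
  have hb : S.baseVec ψ =
      ∑ h : ↥S.Hbar, ∑ u : ↥S.Ubar, (ψ h)⁻¹ • Brauer.funRep k G ((h : G) * u) (Pi.single 1 1) := by
    unfold baseVec
    convert rfl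
  have hval : ∀ x, S.baseVec ψ x =
      ∑ h : ↥S.Hbar, ∑ u : ↥S.Ubar, if x * ((h : G) * u) = 1 then (ψ h)⁻¹ else 0 := by
    intro x
    rw [hb, Finset.sum_apply]
    refine Finset.sum_congr rfl fun h _ => ?_
    rw [Finset.sum_apply]
    refine Finset.sum_congr rfl fun u _ => ?_
    simp [Pi.single_apply, mul_assoc]
  refine ⟨fun u0 hu0 => ?_, fun h0 hh0 => ?_, ?_, fun x hx => ?_⟩
  · rw [hb, map_sum]
    refine Finset.sum_congr rfl fun h _ => ?_
    rw [map_sum]
    have hu' : (h : G)⁻¹ * u0 * h ∈ S.Ubar :=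
      (Subgroup.mem_normalizer_iff''.1 (S.Hbar_le_normalizer_Ubar hS hR h.2) u0).1 hu0
    refine Fintype.sum_equiv (Equiv.mulLeft (⟨_, hu'⟩ : ↥S.Ubar)) _ _ fun u => ?_
    rw [map_smul, ← Module.End.mul_apply, ← map_mul]
    congr 3
    simp [mul_assoc]
  · rw [hb, map_sum, Finset.smul_sum]
    refine Fintype.sum_equiv (Equiv.mulLeft (⟨h0, hh0⟩ : ↥S.Hbar)) _ _ fun h => ?_
    rw [map_sum, Finset.smul_sum]
    refine Finset.sum_congr rfl fun u _ => ?_
    simp only [Equiv.coe_mulLeft, Subgroup.coe_mul]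
    rw [map_smul, ← Module.End.mul_apply, ← map_mul, smul_smul, hψ.2 _ hh0 _ h.2, ← mul_assoc h0,
      mul_inv, ← mul_assoc (ψ h0), mul_inv_cancel₀ (hψ.ne_zero S hh0), one_mul]
  · rw [hval, Finset.sum_eq_single 1 ?_ (by simp), Finset.sum_eq_single 1 ?_ (by simp)]
    · simp [hψ.1]
    · intro u _ hu
      rw [if_neg]
      intro e
      exact hu (Subtype.ext (by simpa using e))
    · intro h _ hh
      refine Finset.sum_eq_zero fun u _ => if_neg fun e => hh (Subtype.ext ?_)
      rw [one_mul] at e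
      exact (S.Bbar_decomp_unique hS hR (one_mem _) (inv_mem u.2) h.2 (one_mem _)
        (by rw [one_mul, mul_one]; exact eq_inv_of_mul_eq_one_left e)).2
  · rw [hval] at hx
    obtain ⟨h, -, hh⟩ := Finset.exists_ne_zero_of_sum_ne_zero hx
    obtain ⟨u, -, hu⟩ := Finset.exists_ne_zero_of_sum_ne_zero hh
    split_ifs at hu with e
    · rw [eq_inv_of_mul_eq_one_left e]
      exact inv_mem (mul_mem (S.Hbar_le_Bbar h.2) (S.Ubar_le_Bbar u.2))
    · exact absurd rfl hu

/-- Every weight occurs among the functions on the group. -/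
theorem exists_weight_vec (hS : Rules D F) (hR : RootTable D len) (hM : S.HMul) (p : ℕ) [Fact p.Prime]
    [CharP F p] [CharP k p] {χ : G → k} (hχ : S.IsChar χ) {K : Finset (Fin D.rank)}
    (hK : ∀ i ∈ K, S.InJ χ i) : ∃ z : G → k, S.IsWeight (Brauer.funRep k G) χ K z := by
  classical
  set ρ := Brauer.funRep k G
  set L : Finset (Fin D.rank) := Finset.univ.filter fun i => S.InJ χ i ∧ i ∉ K with hLdef
  have hL : ∀ i ∈ L, S.InJ χ i := fun i hi => (Finset.mem_filter.1 hi).2.1
  set J : Set ℕ := Fin.val '' (L : Set (Fin D.rank)) with hJdef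
  have hJ : ∀ i : Fin D.rank, i.val ∈ J ↔ i ∈ L := fun i =>
    ⟨fun ⟨j, hj, e⟩ => Fin.ext e ▸ hj, fun h => ⟨i, h, rfl⟩⟩
  obtain ⟨w₀, -, hw₀, hw₀'⟩ := hR.exists_longest
  have hrev : ∀ r, D.IsPosRoot r → D.IsNegRoot (act D w₀.reverse r) := fun r hr =>
    (hR.sign _ (hR.act_lt _ hr.1)).resolve_left fun hp => by
      have := hw₀ _ hp
      rw [hR.act_act_reverse w₀ hr.1] at this
      exact hR.not_pos_and_neg hr this
  have hrev' : ∀ r, D.IsNegRoot r → D.IsPosRoot (act D w₀.reverse r) := fun r hr =>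
    (hR.sign _ (hR.act_lt _ hr.1)).resolve_right fun hn => by
      have := hw₀' _ hn
      rw [hR.act_act_reverse w₀ hr.1] at this
      exact hR.not_pos_and_neg this hr
  let ψ : G → k := fun h => χ (S.nW w₀ * h * (S.nW w₀)⁻¹)
  have hψ : S.IsChar ψ := by
    refine ⟨by simp [ψ, hχ.1], fun a ha b hb => ?_⟩
    simp only [ψ]
    rw [← hχ.2 _ (S.nW_conj_Hbar hS hR w₀ ha) _ (S.nW_conj_Hbar hS hR w₀ hb)]
    congr 1
    group
  obtain ⟨hafix, haeig, ha1, hasupp⟩ := S.baseVec_spec hS hR hψ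
  set a := S.baseVec ψ
  let vw : (Fin D.nroots → Fin D.nroots) → List (Fin D.rank) := fun f => hR.rep J f ++ w₀
  have hrepL : ∀ f ∈ hR.WSet J, ∀ i ∈ hR.rep J f, i ∈ L := fun f hf i hi =>
    (hJ i).1 ((hR.rep_spec hf).1 i hi)
  -- the weight of the summands
  have hword : ∀ u : List (Fin D.rank), (∀ i ∈ u, i ∈ L) → ∀ h ∈ S.Hbar, twist χ (S.nW u) h = χ h := by
    intro u
    induction u with
    | nil => intro _ h _; simp [twist, nW_nil]
    | cons i u ih =>
      intro hu h hh
      have ih' := ih (fun j hj => hu j (List.mem_cons_of_mem _ hj))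
      rw [nW_cons, twist_mul, twist, ih' _ (S.nI_inv_conj_Hbar hS hR i hh)]
      exact S.twist_nI_of_inJ hS hR hM hχ (hL i (hu i List.mem_cons_self)) hh
  have htw : ∀ f ∈ hR.WSet J, ∀ h ∈ S.Hbar, twist ψ (S.nW (vw f)) h = χ h := by
    intro f hf h hh
    rw [← hword _ (hrepL f hf) h hh]
    simp only [vw, nW_append, twist, ψ]
    congr 1
    group
  let E : (Fin D.nroots → Fin D.nroots) → (G → k) := fun f => S.Sw ρ (vw f) a
  have hEeig : ∀ f ∈ hR.WSet J, S.IsEig ρ χ (E f) := fun f hf h hh => by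
    rw [S.Sw_isEig ρ hS hR (vw f) haeig h hh, htw f hf h hh]
  have hEfix : ∀ f, S.IsFix ρ (E f) := fun f => S.Sw_isFix ρ hS hR _ hafix
  set z := ∑ f ∈ hR.WSet J, E f with hzdef
  refine ⟨z, ?_, hχ, fun u hu => ?_, fun h hh => ?_, hK, fun i => ?_⟩
  · -- `z` is not zero
    set f₀ := hR.actF [] with hf₀def
    have hf₀ : f₀ ∈ hR.WSet J := hR.mem_WSet.2 ⟨[], fun i hi => absurd hi (by simp), rfl⟩
    set n₀ := S.nW (vw f₀) with hn₀
    intro hz
    have hzero : ∀ f ∈ hR.WSet J, f ≠ f₀ → E f n₀⁻¹ = 0 := by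
      intro f hf hne
      haveI := Fintype.ofFinite ↥(S.US (invSet D (vw f).reverse))
      simp only [E, Sys.Sw_apply, Finset.sum_apply]
      refine Finset.sum_eq_zero fun u _ => ?_
      by_contra h0
      rw [Brauer.funRep_apply] at h0
      have hb := hasupp _ h0
      have hu : (u : G) ∈ S.Bbar := S.Ubar_le_Bbar (S.US_mono (fun r hr => hr.1) u.2)
      have hact := S.act_eq_of_bruhat hS hR hu hb (v := vw f) (w := vw f₀) (congrArg S.θ (by
        rw [← hn₀]
        group))
      refine hne ((hR.rep_spec hf).2.trans ?_)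
      rw [(hR.rep_spec hf₀).2, hR.mem_actF_iff]
      intro r hr
      have h1 := hact _ (hR.act_lt w₀.reverse hr)
      simp only [vw, act_append, hR.act_act_reverse w₀ hr] at h1
      exact h1
    have h1 : E f₀ n₀⁻¹ = 1 := by
      haveI := Fintype.ofFinite ↥(S.US (invSet D (vw f₀).reverse))
      simp only [E, Sys.Sw_apply, Finset.sum_apply, Brauer.funRep_apply]
      rw [Fintype.sum_eq_single 1]
      · simp [hn₀, ρ, ha1]
      · intro u hu
        by_contra h0
        have hb := hasupp _ h0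
        apply hu
        set c := S.nW (vw f₀) * S.nW (vw f₀).reverse with hcdef
        have hc : c ∈ S.Hbar := S.nW_reverse_mem hS hR _
        have hu' : c⁻¹ * (u : G) * c ∈ S.US (invSet D (vw f₀).reverse) :=
          (Subgroup.mem_normalizer_iff''.1
            (S.Hbar_le_normalizer_US hS hR (T := invSet D (vw f₀).reverse) (fun r hr => hr.1.1) hc) _).1 u.2
        have hV := S.nW_conj_neg hS hR (vw f₀).reverse hu'
        have e : S.nW (vw f₀).reverse * (c⁻¹ * (u : G) * c) * (S.nW (vw f₀).reverse)⁻¹ =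
            n₀⁻¹ * (u * n₀) := by
          rw [hcdef, hn₀]
          group
        have h2 : n₀⁻¹ * ((u : G) * n₀) ∈ S.Vbar ⊓ S.Bbar := ⟨e ▸ hV, by rwa [← hn₀] at hb⟩
        rw [S.Vbar_inf_Bbar hS hR, Subgroup.mem_bot, inv_mul_eq_one, right_eq_mul] at h2
        exact Subtype.ext h2
    have h2 := congrFun hz n₀⁻¹
    rw [hzdef, Finset.sum_apply, Finset.sum_eq_single f₀ hzero (fun h => absurd hf₀ h), h1] at h2
    exact one_ne_zero h2
  · rw [hzdef, map_sum]
    exact Finset.sum_congr rfl fun f _ => hEfix f u hu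
  · rw [hzdef, map_sum, Finset.smul_sum]
    exact Finset.sum_congr rfl fun f hf => hEeig f hf h hh
  · have hp := hR.simple_lt i i.2
    have hdesc : ∀ f ∈ hR.WSet J, D.IsPosRoot (act D (hR.rep J f).reverse (D.simple i)) →
        S.T ρ i (E f) = (if S.InJ χ i then (-1 : k) else 0) • E f := by
      intro f hf hpos
      have hq : D.IsNegRoot (act D (vw f).reverse (D.simple i)) := by
        simp only [vw, List.reverse_append, act_append]
        exact hrev _ hpos
      have hiff : S.InJ (twist ψ (S.nW (vw f))) i ↔ S.InJ χ i :=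
        ⟨fun h c hc => (htw f hf _ (S.hEl_simple_mem i hc)).symm.trans (h c hc),
          fun h c hc => (htw f hf _ (S.hEl_simple_mem i hc)).trans (h c hc)⟩
      simp only [E]
      rw [S.T_Sw_desc ρ hS hR hM p i (vw f) hq hψ hafix haeig]
      simp only [hiff]
    by_cases hi : i ∈ L
    · -- the pairing
      rw [hzdef, if_neg (Finset.mem_filter.1 hi).2.2, zero_smul, map_sum]
      let σ : (Fin D.nroots → Fin D.nroots) → (Fin D.nroots → Fin D.nroots) :=
        fun f => hR.actF (i :: hR.rep J f)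
      have hσmem : ∀ f ∈ hR.WSet J, σ f ∈ hR.WSet J := fun f hf => hR.mem_WSet.2
        ⟨i :: hR.rep J f, fun j hj => (List.mem_cons.1 hj).elim (fun e => e ▸ (hJ i).2 hi)
          ((hR.rep_spec hf).1 j), rfl⟩
      have hσrev : ∀ f ∈ hR.WSet J, act D (hR.rep J (σ f)).reverse (D.simple i) =
          D.neg (act D (hR.rep J f).reverse (D.simple i)) := by
        intro f hf
        rw [hR.act_reverse_congr (fun r hr => hR.rep_act (hσmem f hf) hr) hp, List.reverse_cons,
          act_append, act_singleton, hR.reflect_simple i.2, hR.act_neg _ hp]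
      have hσσ : ∀ f ∈ hR.WSet J, σ (σ f) = f := fun f hf => by
        conv_rhs => rw [(hR.rep_spec hf).2]
        refine hR.mem_actF_iff.2 fun r hr => ?_
        rw [act_cons, hR.rep_act (hσmem f hf) hr, act_cons, hR.reflect_reflect i.2 (hR.act_lt _ hr)]
      have hasc : ∀ f ∈ hR.WSet J, D.IsNegRoot (act D (hR.rep J f).reverse (D.simple i)) →
          S.T ρ i (E f) = E (σ f) := by
        intro f hf hneg
        have hv : D.IsPosRoot (act D (vw f).reverse (D.simple i)) := by
          simp only [vw, List.reverse_append, act_append]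
          exact hrev' _ hneg
        simp only [E]
        rw [S.T_Sw ρ hS hR i _ hv]
        have hsame : ∀ r < D.nroots, act D (i :: hR.rep J f) r = act D (hR.rep J (σ f)) r :=
          fun r hr => (hR.rep_act (hσmem f hf) hr).symm
        obtain ⟨c, hc, e⟩ := S.nW_congr_HLev hS hR
          (fun j hj => (List.mem_cons.1 hj).elim (fun e => e ▸ hi) (hrepL f hf j))
          (hrepL _ (hσmem f hf)) hsame
        have hact : ∀ r < D.nroots, act D (i :: vw f) r = act D (vw (σ f)) r := fun r hr => by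
          simp only [vw, ← List.cons_append, act_append]
          exact hsame _ (hR.act_lt _ hr)
        have e2 : S.nW (i :: vw f) = c * S.nW (vw (σ f)) := by
          simp only [vw, ← List.cons_append, nW_append, e, mul_assoc]
        rw [S.Sw_congr ρ hS hR hact (S.HLev_le L hc) e2,
          hEeig _ (hσmem f hf) c (S.HLev_le L hc), hχ.eq_one_of_HLev S hL hc, one_smul]
      rw [← Finset.sum_filter_add_sum_filter_not (hR.WSet J)
        (fun f => D.IsPosRoot (act D (hR.rep J f).reverse (D.simple i)))]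
      have hA : ∀ f ∈ (hR.WSet J).filter
          (fun f => ¬ D.IsPosRoot (act D (hR.rep J f).reverse (D.simple i))),
          S.T ρ i (E f) = E (σ f) := fun f hf => by
        obtain ⟨h1, h2⟩ := Finset.mem_filter.1 hf
        exact hasc f h1 ((hR.sign _ (hR.act_lt _ hp)).resolve_left h2)
      have hB : ∀ f ∈ (hR.WSet J).filter
          (fun f => D.IsPosRoot (act D (hR.rep J f).reverse (D.simple i))),
          S.T ρ i (E f) = -E f := fun f hf => by
        obtain ⟨h1, h2⟩ := Finset.mem_filter.1 hf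
        rw [hdesc f h1 h2, if_pos (hL i hi), neg_one_smul]
      rw [Finset.sum_congr rfl hA, Finset.sum_congr rfl hB, Finset.sum_neg_distrib, neg_add_eq_zero]
      refine Finset.sum_bij' (fun f _ => σ f) (fun f _ => σ f) ?_ ?_ ?_ ?_ ?_
      · intro f hf
        obtain ⟨h1, h2⟩ := Finset.mem_filter.1 hf
        refine Finset.mem_filter.2 ⟨hσmem f h1, ?_⟩
        rw [hσrev f h1]
        exact fun h3 => hR.not_pos_and_neg h2 ((hR.pos_neg_iff (hR.act_lt _ hp)).1 h3)
      · intro f hf
        obtain ⟨h1, h2⟩ := Finset.mem_filter.1 hf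
        refine Finset.mem_filter.2 ⟨hσmem f h1, ?_⟩
        rw [hσrev f h1]
        exact (hR.pos_neg_iff (hR.act_lt _ hp)).2 ((hR.sign _ (hR.act_lt _ hp)).resolve_left h2)
      · exact fun f hf => hσσ f (Finset.mem_filter.1 hf).1
      · exact fun f hf => hσσ f (Finset.mem_filter.1 hf).1
      · intro f hf
        show E f = E (σ (σ f))
        rw [hσσ f (Finset.mem_filter.1 hf).1]
    · have hout : ¬ D.InRootSub J (D.simple i) := fun h => by
        have := (hR.outJ_simple J i).2 fun h' => hi ((hJ i).1 h')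
        rw [(hR.inRootSub_iff J hp).1 h] at this
        exact lt_irrefl _ this
      have hco : (if i ∈ K then (-1 : k) else 0) = if S.InJ χ i then (-1 : k) else 0 := by
        by_cases h1 : S.InJ χ i
        · have : i ∈ K := by
            by_contra h2
            exact hi (Finset.mem_filter.2 ⟨Finset.mem_univ _, h1, h2⟩)
          rw [if_pos this, if_pos h1]
        · rw [if_neg h1, if_neg fun h => h1 (hK i h)]
      rw [hzdef, map_sum, Finset.smul_sum, hco]
      exact Finset.sum_congr rfl fun f hf => hdesc f hf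
        (hR.act_pos_of_outside (RootTable.letters_reverse (hR.rep_spec hf).1) (hR.simple_pos i) hout)

theorem IsWeight.map {V W : Type*} [AddCommGroup V] [Module k V] [AddCommGroup W] [Module k W]
    {ρ : Representation k G V} {σ : Representation k G W} {χ : G → k} {K : Finset (Fin D.rank)} {v : V}
    (h : S.IsWeight ρ χ K v) {φ : V →ₗ[k] W} (hφ : ∀ g y, φ (ρ g y) = σ g (φ y)) (h0 : φ v ≠ 0) :
    S.IsWeight σ χ K (φ v) :=
  ⟨h0, h.2.1, fun u hu => by rw [← hφ, h.2.2.1 u hu],
    fun a ha => by rw [← hφ, h.2.2.2.1 a ha, map_smul], h.2.2.2.2.1,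
    fun i => by
      rw [← map_smul, ← h.2.2.2.2.2 i, T_apply, T_apply, map_sum]
      exact Finset.sum_congr rfl fun t _ => (hφ _ _).symm⟩

theorem IsWeight.subRep {V : Type*} [AddCommGroup V] [Module k V] {ρ : Representation k G V}
    {χ : G → k} {K : Finset (Fin D.rank)} {v : V} (h : S.IsWeight ρ χ K v) {U : Submodule k V}
    (hU : IsInv ρ U) (hv : v ∈ U) : S.IsWeight (ModRep.subRep ρ hU) χ K ⟨v, hv⟩ :=
  ⟨fun e => h.1 (congrArg Subtype.val e), h.2.1, fun u hu => Subtype.ext (h.2.2.1 u hu),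
    fun a ha => Subtype.ext (h.2.2.2.1 a ha), h.2.2.2.2.1, fun i => Subtype.ext (by
      rw [T_apply, Submodule.coe_smul, ← h.2.2.2.2.2 i, T_apply, Submodule.coe_sum]
      rfl)⟩

end Sys

end Cfsg.Agent.ChevGrp
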