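import Cfsg.Agent.ChevGrp.UnipCount

/-!
The operators `T_i`, `T_w` on the fixed vectors of `U` in a modular representation (owner: helper32).
-/

set_option linter.style.haveILetI false

namespace Cfsg.Agent.ChevGrp

open Cfsg.Lie
open scoped MatrixGroups

namespace RootTable

variable {D : ChevalleyDatum} {len : ℕ → ℕ}

theorem act_pos_of_neg_cons (hR : RootTable D len) (i : Fin D.rank) (v : List (Fin D.rank))
    (h : D.IsNegRoot (act D v.reverse (D.simple i))) :
    D.IsPosRoot (act D (i :: v).reverse (D.simple i)) := by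
  have hp := hR.simple_lt i i.2
  rw [List.reverse_cons, act_append, act_singleton, hR.reflect_simple i.2, hR.act_neg _ hp]
  exact (hR.pos_neg_iff h.1).2 h

theorem act_cons_cons (hR : RootTable D len) (i : Fin D.rank) (v : List (Fin D.rank)) {r : ℕ}
    (hr : r < D.nroots) : act D (i :: i :: v) r = act D v r := by
  rw [act_cons, act_cons, hR.reflect_reflect i.2 (hR.act_lt v hr)]

theorem reduced_tail (hR : RootTable D len) {i : Fin D.rank} {v : List (Fin D.rank)}
    (h : Reduced D (i :: v)) : Reduced D v ∧ D.IsPosRoot (act D v.reverse (D.simple i)) := by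
  have h0 := hR.invCount_le_length v
  rw [Reduced, List.length_cons] at h
  rcases hR.sign _ (hR.act_lt v.reverse (hR.simple_lt i i.2)) with hp | hn
  · refine ⟨?_, hp⟩
    rw [hR.invCount_cons_pos i v hp] at h
    rw [Reduced]
    omega
  · have h1 := hR.invCount_cons_pos i (i :: v) (hR.act_pos_of_neg_cons i v hn)
    rw [invCount_congr D fun r hr => hR.act_cons_cons i v hr] at h1
    omega

theorem degPos_outHom (hR : RootTable D len) (i : Fin D.rank) :
    degPos D len (Sys.outHom D i) = posSet D \ {D.simple i} := by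
  ext r
  refine ⟨fun ⟨hr, h⟩ => ?_, fun ⟨hr, hne⟩ => ⟨hr.1, Sys.outHom_pos hR i hr hne⟩⟩
  rcases hR.sign r hr with hp | hn
  · exact ⟨hp, fun e => by rw [(e : r = D.simple i), Sys.outHom_simple hR i] at h; omega⟩
  · exfalso
    by_cases e : D.neg r = D.simple i
    · have := Sys.outHom_simple hR i
      rw [← e, hR.deg_neg _ hr] at this
      omega
    · have := Sys.outHom_pos hR i ((hR.pos_neg_iff hr).2 hn) e
      rw [hR.deg_neg _ hr] at this
      omega

end RootTable

namespace Sys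

variable {D : ChevalleyDatum} {F : Type*} [Field F] {G : Type*} [Group G] (S : Sys D F G)
  {len : ℕ → ℕ} {k : Type*} [Field k] {V : Type*} [AddCommGroup V] [Module k V]
  (ρ : Representation k G V)

/-- Fixed by `U`. -/
def IsFix (v : V) : Prop := ∀ u ∈ S.Ubar, ρ u v = v

/-- An eigenvector of `H`. -/
def IsEig (χ : G → k) (v : V) : Prop := ∀ h ∈ S.Hbar, ρ h v = χ h • v

/-- A character of `H`. -/
def IsChar (χ : G → k) : Prop := χ 1 = 1 ∧ ∀ a ∈ S.Hbar, ∀ b ∈ S.Hbar, χ (a * b) = χ a * χ b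

/-- A conjugate character. -/
def twist (χ : G → k) (g : G) : G → k := fun h => χ (g⁻¹ * h * g)

/-- The character is trivial on the image of `h_p`. -/
def InJ (χ : G → k) (i : Fin D.rank) : Prop := ∀ c : F, c ≠ 0 → χ (S.hEl (D.simple i) c) = 1

theorem IsChar.inv {χ : G → k} (hχ : S.IsChar χ) {a : G} (ha : a ∈ S.Hbar) : χ a⁻¹ = (χ a)⁻¹ :=
  eq_inv_of_mul_eq_one_left (by rw [← hχ.2 _ (inv_mem ha) _ ha, inv_mul_cancel, hχ.1])

theorem IsChar.ne_zero {χ : G → k} (hχ : S.IsChar χ) {a : G} (ha : a ∈ S.Hbar) : χ a ≠ 0 := fun h => by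
  have := hχ.2 _ (inv_mem ha) _ ha
  rw [inv_mul_cancel, hχ.1, h, mul_zero] at this
  exact one_ne_zero this

theorem IsEig.smul {χ : G → k} {v : V} (h : S.IsEig ρ χ v) (c : k) : S.IsEig ρ χ (c • v) :=
  fun a ha => by rw [map_smul, h a ha, smul_comm]

theorem IsFix.smul {v : V} (h : S.IsFix ρ v) (c : k) : S.IsFix ρ (c • v) :=
  fun a ha => by rw [map_smul, h a ha]

theorem isFix_rho_Hbar (hS : Rules D F) (hR : RootTable D len) {v : V} (hv : S.IsFix ρ v) {h : G}
    (hh : h ∈ S.Hbar) : S.IsFix ρ (ρ h v) := by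
  intro u hu
  have hu' : h⁻¹ * u * h ∈ S.Ubar :=
    (Subgroup.mem_normalizer_iff''.1 (S.Hbar_le_normalizer_Ubar hS hR hh) u).1 hu
  rw [← Module.End.mul_apply, ← map_mul, show u * h = h * (h⁻¹ * u * h) by group, map_mul,
    Module.End.mul_apply, hv _ hu']

theorem nI_sq (hR : RootTable D len) (i : Fin D.rank) :
    S.nI i * S.nI i = (S.hEl (D.simple i) (-1))⁻¹ := by
  rw [S.hEl_inv hR (hR.simple_lt i i.2), neg_neg]
  rfl

theorem hEl_inv_eq (hR : RootTable D len) (hM : S.HMul) (i : Fin D.rank) {c : F} (hc : c ≠ 0) :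
    (S.hEl (D.simple i) c)⁻¹ = S.hEl (D.simple i) c⁻¹ :=
  inv_eq_of_mul_eq_one_right (by
    rw [hM i c c⁻¹ hc (inv_ne_zero hc), mul_inv_cancel₀ hc, S.hEl_one hR (hR.simple_lt i i.2)])

theorem nI_conj_hEl (hR : RootTable D len) (hM : S.HMul) (i : Fin D.rank) {c : F} (hc : c ≠ 0) :
    S.nI i * S.hEl (D.simple i) c * (S.nI i)⁻¹ = (S.hEl (D.simple i) c)⁻¹ := by
  have hp := hR.simple_lt i i.2
  have hc' : -c ≠ 0 := neg_ne_zero.2 hc
  have h1 : (S.hEl (D.simple i) (-c))⁻¹ = S.nI i * S.hEl (D.simple i) c * (S.nI i)⁻¹ * (S.nI i * S.nI i) := by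
    rw [S.hEl_inv hR hp, neg_neg, S.nEl_eq hR hp c, nI]
    simp [mul_assoc]
  rw [S.nI_sq hR i, eq_mul_inv_iff_mul_eq] at h1
  rw [← h1, S.hEl_inv_eq hR hM i hc', hM i _ _ (inv_ne_zero hc') (neg_ne_zero.2 one_ne_zero),
    S.hEl_inv_eq hR hM i hc]
  congr 1
  rw [inv_neg]
  ring

theorem nI_inv_conj_hEl (hR : RootTable D len) (hM : S.HMul) (i : Fin D.rank) {c : F} (hc : c ≠ 0) :
    (S.nI i)⁻¹ * S.hEl (D.simple i) c * S.nI i = (S.hEl (D.simple i) c)⁻¹ := by
  have h := congrArg (fun z => (S.nI i)⁻¹ * z⁻¹ * S.nI i) (S.nI_conj_hEl hR hM i hc)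
  simp only [mul_inv_rev, inv_inv] at h
  rw [← h]
  group

theorem nW_inv_conj_Hbar (hS : Rules D F) (hR : RootTable D len) (w : List (Fin D.rank)) {h : G}
    (hh : h ∈ S.Hbar) : (S.nW w)⁻¹ * h * S.nW w ∈ S.Hbar :=
  (Subgroup.mem_normalizer_iff''.1 (S.Nbar_le_normalizer hS hR (S.nW_mem_Nbar w)) h).1 hh

theorem nI_inv_conj_Hbar (hS : Rules D F) (hR : RootTable D len) (i : Fin D.rank) {h : G}
    (hh : h ∈ S.Hbar) : (S.nI i)⁻¹ * h * S.nI i ∈ S.Hbar :=
  (Subgroup.mem_normalizer_iff''.1 (S.Nbar_le_normalizer hS hR (S.nI_mem_Nbar i)) h).1 hh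

theorem IsChar.twist_nW (hS : Rules D F) (hR : RootTable D len) {χ : G → k} (hχ : S.IsChar χ)
    (w : List (Fin D.rank)) : S.IsChar (twist χ (S.nW w)) := by
  refine ⟨by simp [twist, hχ.1], fun a ha b hb => ?_⟩
  simp only [twist]
  rw [← hχ.2 _ (S.nW_inv_conj_Hbar hS hR w ha) _ (S.nW_inv_conj_Hbar hS hR w hb)]
  congr 1
  group

theorem twist_mul (χ : G → k) (a b : G) : twist χ (a * b) = twist (twist χ b) a := by
  funext h
  simp [twist, mul_assoc]

theorem inJ_twist_nI (hR : RootTable D len) (hM : S.HMul) (χ : G → k) (i : Fin D.rank) :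
    S.InJ (twist χ (S.nI i)) i ↔ S.InJ χ i := by
  constructor <;> intro h c hc
  · have := h c⁻¹ (inv_ne_zero hc)
    rwa [twist, S.nI_inv_conj_hEl hR hM i (inv_ne_zero hc), S.hEl_inv_eq hR hM i (inv_ne_zero hc),
      inv_inv] at this
  · rw [twist, S.nI_inv_conj_hEl hR hM i hc, S.hEl_inv_eq hR hM i hc]
    exact h _ (inv_ne_zero hc)

theorem twist_nI_of_inJ (hS : Rules D F) (hR : RootTable D len) (hM : S.HMul) {χ : G → k}
    (hχ : S.IsChar χ) {i : Fin D.rank} (hi : S.InJ χ i) {h : G} (hh : h ∈ S.Hbar) :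
    twist χ (S.nI i) h = χ h := by
  have hp := hR.simple_lt i i.2
  obtain ⟨a, ha, hha⟩ := S.conjP_Hbar hS hR hh
  have e := ConjP.nEl hR ha hha hp 1
  rw [act_nil, mul_one, S.nEl_eq hR hp (a _)] at e
  have h0 : a (D.simple i) ≠ 0 := right_ne_zero_of_mul_eq_one (ha _ hp)
  have e2 : (S.nI i)⁻¹ * h * S.nI i = (S.hEl (D.simple i) (a (D.simple i)))⁻¹ * h := by
    rw [← S.nI_inv_conj_hEl hR hM i h0]
    have e3 := congrArg (fun z => (S.nI i)⁻¹ * z * h) e
    simp only [nI] at e3 ⊢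
    rw [show ∀ n z : G, n⁻¹ * (z * n) * h = n⁻¹ * z * n * h from fun n z => by group] at e3
    rw [← e3]
    group
  rw [twist, e2, hχ.2 _ (inv_mem (S.hEl_simple_mem i h0)) _ hh, S.hEl_inv_eq hR hM i h0,
    hi _ (inv_ne_zero h0), one_mul]

variable [Fintype F]

/-- The operator of a fundamental reflection. -/
noncomputable def T (i : Fin D.rank) : Module.End k V := ∑ t : F, ρ (S.x (D.simple i) t * S.nI i)

theorem T_apply (i : Fin D.rank) (v : V) :
    S.T ρ i v = ∑ t : F, ρ (S.x (D.simple i) t * S.nI i) v := by simp [T]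

theorem T_isFix (hS : Rules D F) (hR : RootTable D len) (i : Fin D.rank) {v : V}
    (hv : S.IsFix ρ v) : S.IsFix ρ (S.T ρ i v) := by
  intro u hu
  have hp := hR.simple_lt i i.2
  obtain ⟨a, ha, c, rfl⟩ := S.x_simple_split hR i hu
  rw [T_apply, map_sum]
  refine Fintype.sum_equiv (Equiv.addLeft c) _ _ fun t => ?_
  rw [← Module.End.mul_apply, ← map_mul, Equiv.coe_addLeft, ← S.x_add _ hp]
  have ha' : a ∈ S.US (degPos D len (outHom D i)) := by rwa [hR.degPos_outHom i]
  have hb := (Subgroup.mem_normalizer_iff''.1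
    (S.x_mem_normalizer_degPos hR hp (outHom_simple hR i) (c + t)) a).1 ha'
  rw [hR.degPos_outHom i] at hb
  have hn := S.US_mono Set.sdiff_subset (S.nI_conj_Up hS hR i hb)
  have hz : (S.nI i * S.nI i)⁻¹ * (S.nI i * ((S.x (D.simple i) (c + t))⁻¹ * a * S.x (D.simple i) (c + t))
      * (S.nI i)⁻¹) * (S.nI i * S.nI i) ∈ S.Ubar :=
    (Subgroup.mem_normalizer_iff''.1 (S.Hbar_le_normalizer_Ubar hS hR (S.nI_sq_mem hR i)) _).1 hn
  rw [← S.x_add _ hp] at hz
  rw [show a * S.x (D.simple i) c * (S.x (D.simple i) t * S.nI i) =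
      S.x (D.simple i) c * S.x (D.simple i) t * S.nI i *
        ((S.nI i * S.nI i)⁻¹ * (S.nI i * ((S.x (D.simple i) c * S.x (D.simple i) t)⁻¹ * a *
          (S.x (D.simple i) c * S.x (D.simple i) t)) * (S.nI i)⁻¹) * (S.nI i * S.nI i)) by group,
    map_mul, Module.End.mul_apply, hv _ hz]

theorem T_isEig (hS : Rules D F) (hR : RootTable D len) (i : Fin D.rank) {χ : G → k} {v : V}
    (hv : S.IsEig ρ χ v) : S.IsEig ρ (twist χ (S.nI i)) (S.T ρ i v) := by
  intro h hh
  have hp := hR.simple_lt i i.2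
  obtain ⟨a, ha, hha⟩ := S.conjP_Hbar hS hR hh
  have h0 : a (D.simple i) ≠ 0 := right_ne_zero_of_mul_eq_one (ha _ hp)
  rw [T_apply, map_sum, Finset.smul_sum]
  refine Fintype.sum_equiv (Equiv.mulLeft₀ _ h0) _ _ fun t => ?_
  rw [← Module.End.mul_apply, ← map_mul, show Equiv.mulLeft₀ _ h0 t = a (D.simple i) * t from rfl, twist, ← map_smul,
    ← hv _ (S.nI_inv_conj_Hbar hS hR i hh), ← Module.End.mul_apply, ← map_mul]
  have e := hha _ hp t
  rw [act_nil] at e
  rw [← e]
  congr 1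
  group

theorem T_T (hS : Rules D F) (hR : RootTable D len) (hM : S.HMul) (p : ℕ) [Fact p.Prime] [CharP F p]
    [CharP k p] (i : Fin D.rank) {χ : G → k} (hχ : S.IsChar χ) {v : V} (hv : S.IsFix ρ v)
    (he : S.IsEig ρ χ v) [Decidable (S.InJ χ i)] :
    S.T ρ i (S.T ρ i v) = (if S.InJ χ i then (-1 : k) else 0) • S.T ρ i v := by
  classical
  have hp := hR.simple_lt i i.2
  obtain ⟨a, ha, hia⟩ := S.conjP_nI hS hR i
  have h0 : a (D.simple i) ≠ 0 := right_ne_zero_of_mul_eq_one (ha _ hp)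
  set n := S.nI i with hn
  have hzH : n * n ∈ S.Hbar := S.nI_sq_mem hR i
  have hcastF : (Fintype.card F : k) = 0 := by
    have h := card_field_cast (F := F) p
    rw [ZMod.natCast_eq_zero_iff] at h
    rw [← Nat.card_eq_fintype_card]
    exact (CharP.cast_eq_zero_iff k p _).2 h
  have hUx : ∀ t, S.x (D.simple i) t ∈ S.Ubar := fun t => S.x_mem_US (hR.simple_pos i) t
  -- the term of `s`
  have hterm : ∀ s : F, s ≠ 0 → ∑ t : F, ρ (S.x (D.simple i) t * n * (S.x (D.simple i) s * n)) v =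
      (χ (n * n) * χ (S.hEl (D.simple i) (-(a (D.simple i) * s)))) • S.T ρ i v := by
    intro s hs
    have h1 := hia _ hp s
    rw [act_singleton, hR.reflect_simple i.2] at h1
    set r := a (D.simple i) * s with hr
    have hr0 : r ≠ 0 := mul_ne_zero h0 hs
    set s' := -r⁻¹ with hs'
    have hs'0 : s' ≠ 0 := neg_ne_zero.2 (inv_ne_zero hr0)
    have hxneg : S.x (D.neg (D.simple i)) r =
        S.x (D.simple i) (-s') * (S.hEl (D.simple i) s' * n) * S.x (D.simple i) (-s') := by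
      rw [hn, nI, ← S.nEl_eq hR hp, nEl, ← S.x_inv hp]
      simp [hs', mul_assoc]
    rw [T_apply, Finset.smul_sum]
    refine Fintype.sum_equiv (Equiv.addRight (-s')) _ _ fun t => ?_
    have e : S.x (D.simple i) t * n * (S.x (D.simple i) s * n) =
        S.x (D.simple i) (t + -s') * n * ((S.hEl (D.simple i) s')⁻¹ * (S.x (D.simple i) (-s') * (n * n))) := by
      rw [← S.nI_inv_conj_hEl hR hM i hs'0, ← hn, ← S.x_add _ hp,
        show S.x (D.simple i) t * n * (S.x (D.simple i) s * n) =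
          S.x (D.simple i) t * (n * S.x (D.simple i) s * n⁻¹) * (n * n) by group, h1, hxneg]
      group
    rw [e, map_mul ρ (_ * n), Module.End.mul_apply, map_mul ρ (S.hEl _ _)⁻¹, Module.End.mul_apply,
      map_mul ρ (S.x _ (-s')), Module.End.mul_apply,
      he _ hzH, map_smul, hv _ (hUx _), map_smul, he _ (inv_mem (S.hEl_simple_mem i hs'0)), smul_smul,
      map_smul]
    congr 2
    rw [S.hEl_inv_eq hR hM i hs'0, hs']
    simp [inv_neg]
  have h0term : ∑ t : F, ρ (S.x (D.simple i) t * n * (S.x (D.simple i) 0 * n)) v = 0 := by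
    rw [S.x_zero hp, one_mul]
    have : ∀ t : F, ρ (S.x (D.simple i) t * n * n) v = χ (n * n) • v := fun t => by
      rw [mul_assoc, map_mul, Module.End.mul_apply, he _ hzH, map_smul, hv _ (hUx t)]
    rw [Finset.sum_congr rfl fun t _ => this t, Finset.sum_const, Finset.card_univ, ← Nat.cast_smul_eq_nsmul k,
      hcastF, zero_smul]
  have e1 : S.T ρ i (S.T ρ i v) =
      ∑ s : F, ∑ t : F, ρ (S.x (D.simple i) t * n * (S.x (D.simple i) s * n)) v := by
    rw [S.T_apply ρ i (S.T ρ i v), Finset.sum_comm]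
    refine Finset.sum_congr rfl fun t _ => ?_
    rw [T_apply, map_sum]
    exact Finset.sum_congr rfl fun s _ => by rw [← Module.End.mul_apply, ← map_mul]
  rw [e1, Finset.sum_eq_add_sum_sdiff_singleton_of_mem (Finset.mem_univ (0 : F)), h0term, zero_add,
    Finset.sum_congr rfl fun s hs => hterm s (by simpa using hs), ← Finset.sum_smul, ← Finset.mul_sum]
  congr 1
  -- the character sum
  let f : Fˣ →* k :=
    { toFun := fun c => χ (S.hEl (D.simple i) c)
      map_one' := by rw [Units.val_one, S.hEl_one hR hp, hχ.1]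
      map_mul' := fun c d => by
        rw [Units.val_mul, ← hM i c d c.ne_zero d.ne_zero,
          hχ.2 _ (S.hEl_simple_mem i c.ne_zero) _ (S.hEl_simple_mem i d.ne_zero)] }
  have hsum : ∑ s ∈ Finset.univ \ {(0 : F)}, χ (S.hEl (D.simple i) (-(a (D.simple i) * s))) = ∑ c : Fˣ, f c := by
    refine Finset.sum_bij' (fun s hs => Units.mk0 (-(a (D.simple i) * s))
        (neg_ne_zero.2 (mul_ne_zero h0 (by simpa using hs))))
      (fun c _ => -((c : F) / a (D.simple i))) (fun _ _ => Finset.mem_univ _)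
      (fun c _ => by simp [h0]) (fun s _ => by simp only [Units.val_mk0]; field_simp) (fun c _ => Units.ext (by simp [mul_div_cancel₀ _ h0]))
      (fun s _ => rfl)
  have hcard : (Fintype.card Fˣ : k) = -1 := by
    rw [Fintype.card_units, Nat.cast_sub Fintype.card_pos, hcastF, Nat.cast_one, zero_sub]
  rw [hsum, sum_hom_units f]
  have hiff : f = 1 ↔ S.InJ χ i := ⟨fun h c hc => DFunLike.congr_fun h (Units.mk0 c hc),
    fun h => MonoidHom.ext fun c => h c c.ne_zero⟩
  by_cases hi : S.InJ χ i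
  · rw [if_pos hi, if_pos (hiff.2 hi), hcard]
    rw [hn, S.nI_sq hR i, hχ.inv S (S.hEl_simple_mem i (neg_ne_zero.2 one_ne_zero)),
      hi _ (neg_ne_zero.2 one_ne_zero), inv_one, one_mul]
  · rw [if_neg hi, if_neg (fun h => hi (hiff.1 h)), Nat.cast_zero, mul_zero]

variable [Finite G]

/-- The operator of a word. -/
noncomputable def Sw (v : List (Fin D.rank)) : Module.End k V :=
  letI := Fintype.ofFinite ↥(S.US (invSet D v.reverse))
  ∑ u : ↥(S.US (invSet D v.reverse)), ρ ((u : G) * S.nW v)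

theorem Sw_apply (v : List (Fin D.rank)) [Fintype ↥(S.US (invSet D v.reverse))] (x : V) :
    S.Sw ρ v x = ∑ u : ↥(S.US (invSet D v.reverse)), ρ ((u : G) * S.nW v) x := by
  rw [Sw, LinearMap.sum_apply]
  convert rfl

theorem Sw_nil (hR : RootTable D len) (x : V) : S.Sw ρ [] x = x := by
  classical
  haveI := Fintype.ofFinite ↥(S.US (invSet D ([] : List (Fin D.rank)).reverse))
  have h : S.US (invSet D ([] : List (Fin D.rank)).reverse) = ⊥ := by
    rw [eq_bot_iff, US, Subgroup.closure_le]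
    rintro _ ⟨r, hr, t, rfl⟩
    exact absurd hr.2 fun hn => hR.not_pos_and_neg hr.1 hn
  rw [Sw_apply, Fintype.sum_eq_single 1 fun u hu =>
    absurd (Subtype.ext (Subgroup.mem_bot.1 (h ▸ u.2))) hu]
  simp [nW_nil]

theorem T_Sw (hS : Rules D F) (hR : RootTable D len) (i : Fin D.rank) (v : List (Fin D.rank))
    (hq : D.IsPosRoot (act D v.reverse (D.simple i))) (x : V) :
    S.T ρ i (S.Sw ρ v x) = S.Sw ρ (i :: v) x := by
  classical
  have hp := hR.simple_lt i i.2
  haveI := Fintype.ofFinite ↥(S.US (invSet D v.reverse))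
  haveI := Fintype.ofFinite ↥(S.US (invSet D (i :: v).reverse))
  set A := invSet D v.reverse with hA
  set A' := invSet D (i :: v).reverse with hA'
  have hact : ∀ r, act D (i :: v).reverse r = act D v.reverse (D.reflectRoot i r) := fun r => by
    rw [List.reverse_cons, act_append, act_singleton]
  have hpA : D.simple i ∉ A := fun h => hR.not_pos_and_neg hq h.2
  have hpA' : D.simple i ∈ A' := by
    refine ⟨hR.simple_pos i, ?_⟩
    rw [hact, hR.reflect_simple i.2, hR.act_neg _ hp]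
    have hlt := hR.act_lt v.reverse hp
    rw [hR.neg_neg_iff hlt]
    exact hq
  have himg : A' = insert (D.simple i) (D.reflectRoot i '' A) := by
    ext r
    constructor
    · rintro ⟨hr, hn⟩
      by_cases e : r = D.simple i
      · exact Or.inl e
      · rw [hact] at hn
        exact Or.inr ⟨_, ⟨hR.reflect_pos i hr e, hn⟩, hR.reflect_reflect i.2 hr.1⟩
    · rintro (rfl | ⟨s, hs, rfl⟩)
      · exact hpA'
      · refine ⟨hR.reflect_pos i hs.1 fun e => hpA (e ▸ hs), ?_⟩
        rw [hact, hR.reflect_reflect i.2 hs.1.1]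
        exact hs.2
  obtain ⟨a, ha, hia⟩ := S.conjP_nI hS hR i
  have hconj : ∀ u ∈ S.US A, S.nI i * u * (S.nI i)⁻¹ ∈ S.US A' := by
    intro u hu
    refine Subgroup.closure_induction ?_ ?_ ?_ ?_ hu
    · rintro _ ⟨r, hr, t, rfl⟩
      rw [hia r hr.1.1, act_singleton]
      exact S.x_mem_US (himg ▸ Set.mem_insert_of_mem _ ⟨r, hr, rfl⟩) _
    · simp [one_mem]
    · intro x y _ _ hx hy
      have := mul_mem hx hy
      simpa [mul_assoc] using this
    · intro x _ hx
      have := inv_mem hx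
      simpa [mul_assoc] using this
  let f : F × ↥(S.US A) → ↥(S.US A') := fun z =>
    ⟨S.x (D.simple i) z.1 * (S.nI i * (z.2 : G) * (S.nI i)⁻¹),
      mul_mem (S.x_mem_US hpA' _) (hconj _ z.2.2)⟩
  have hf : Function.Injective f := by
    rintro ⟨t, u⟩ ⟨t', u'⟩ h
    have h' := congrArg Subtype.val h
    simp only [f] at h'
    have h1 : S.x (D.simple i) (-t' + t) = S.nI i * ((u' : G) * (u : G)⁻¹) * (S.nI i)⁻¹ := by
      rw [← S.x_add _ hp, ← S.x_inv hp]
      calc (S.x (D.simple i) t')⁻¹ * S.x (D.simple i) t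
          = (S.x (D.simple i) t')⁻¹ * (S.x (D.simple i) t * (S.nI i * (u : G) * (S.nI i)⁻¹)) *
            (S.nI i * (u : G) * (S.nI i)⁻¹)⁻¹ := by group
        _ = _ := by rw [h']; group
    have hU : S.US A ≤ S.Ubar := S.US_mono fun r hr => hr.1
    have hb : (u' : G) * (u : G)⁻¹ ∈ S.Vbar ⊓ S.Bbar := by
      refine ⟨?_, S.Ubar_le_Bbar (mul_mem (hU u'.2) (inv_mem (hU u.2)))⟩
      obtain ⟨b, hb, hib⟩ := (S.conjP_nI hS hR i).inv hR
      have e := hib _ hp (-t' + t)
      rw [List.reverse_singleton, act_singleton, hR.reflect_simple i.2] at e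
      rw [show (u' : G) * (u : G)⁻¹ = (S.nI i)⁻¹ * S.x (D.simple i) (-t' + t) * (S.nI i)⁻¹⁻¹ by
        rw [h1]; group, e]
      exact S.x_mem_US (hR.neg_simple_isNeg i) _
    rw [S.Vbar_inf_Bbar hS hR, Subgroup.mem_bot, mul_inv_eq_one] at hb
    rw [hb, mul_inv_cancel, mul_one, mul_inv_cancel] at h1
    have ht : t = t' := by
      by_contra hne
      refine hR.neg_ne hp (S.x_root_inj hR hp (hR.neg_lt _ hp) (t := -t' + t) (u := 0) ?_ ?_).symm
      · intro h0
        exact hne (neg_add_eq_zero.1 h0).symm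
      · rw [h1, S.x_zero (hR.neg_lt _ hp)]
    exact Prod.ext ht (Subtype.ext hb.symm)
  have hbij : Function.Bijective f := by
    refine (Fintype.bijective_iff_injective_and_card f).2 ⟨hf, ?_⟩
    rw [← Nat.card_eq_fintype_card, ← Nat.card_eq_fintype_card, Nat.card_prod,
      S.card_US hR (hR.inv_closed v.reverse), S.card_US hR (hR.inv_closed (i :: v).reverse), ← hA, ← hA',
      himg]
    have hfin : A.Finite := (hR.inv_closed v.reverse).finite
    have hinj : Set.InjOn (D.reflectRoot i) A := fun r hr s hs e => by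
      rw [← hR.reflect_reflect i.2 hr.1.1, e, hR.reflect_reflect i.2 hs.1.1]
    have hnot : D.simple i ∉ D.reflectRoot i '' A := by
      rintro ⟨s, hs, e⟩
      have : s = D.neg (D.simple i) := by
        rw [← hR.reflect_simple i.2, ← e, hR.reflect_reflect i.2 hs.1.1]
      exact hR.not_pos_and_neg hs.1 (this ▸ hR.neg_simple_isNeg i)
    rw [Nat.card_coe_set_eq, Nat.card_coe_set_eq, Set.ncard_insert_of_notMem hnot (hfin.image _),
      hinj.ncard_image, pow_succ']
  rw [T_apply, Sw_apply, Sw_apply]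
  simp only [map_sum]
  rw [← Fintype.sum_prod_type']
  refine Fintype.sum_equiv (Equiv.ofBijective f hbij) _ _ fun z => ?_
  rw [← Module.End.mul_apply, ← map_mul, Equiv.ofBijective_apply, nW_cons]
  simp [f, mul_assoc]

theorem Sw_congr (hS : Rules D F) (hR : RootTable D len) {v w : List (Fin D.rank)}
    (h : ∀ r < D.nroots, act D v r = act D w r) {c : G} (hc : c ∈ S.Hbar) (e : S.nW v = c * S.nW w)
    (x : V) : S.Sw ρ v x = ρ c (S.Sw ρ w x) := by
  classical
  have hinv : invSet D v.reverse = invSet D w.reverse :=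
    invSet_congr D fun r hr => hR.act_reverse_congr h hr
  haveI := Fintype.ofFinite ↥(S.US (invSet D v.reverse))
  haveI := Fintype.ofFinite ↥(S.US (invSet D w.reverse))
  rw [Sw_apply, Sw_apply, map_sum]
  have hn := Subgroup.mem_normalizer_iff''.1
    (S.Hbar_le_normalizer_US hS hR (T := invSet D w.reverse) (fun r hr => hr.1.1) hc)
  let φ : ↥(S.US (invSet D v.reverse)) ≃ ↥(S.US (invSet D w.reverse)) :=
    { toFun := fun u => ⟨c⁻¹ * u * c, (hn _).1 (by rw [← hinv]; exact u.2)⟩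
      invFun := fun u => ⟨c * u * c⁻¹, by rw [hinv, hn]; simp [mul_assoc]⟩
      left_inv := fun u => Subtype.ext (by simp [mul_assoc])
      right_inv := fun u => Subtype.ext (by simp [mul_assoc]) }
  refine Fintype.sum_equiv φ _ _ fun u => ?_
  rw [e, ← Module.End.mul_apply, ← map_mul]
  simp [φ, mul_assoc]

theorem Sw_isEig (hS : Rules D F) (hR : RootTable D len) (v : List (Fin D.rank)) {χ : G → k} {x : V}
    (hx : S.IsEig ρ χ x) : S.IsEig ρ (twist χ (S.nW v)) (S.Sw ρ v x) := by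
  intro h hh
  haveI := Fintype.ofFinite ↥(S.US (invSet D v.reverse))
  rw [Sw_apply, map_sum, Finset.smul_sum]
  have hn := Subgroup.mem_normalizer_iff.1
    (S.Hbar_le_normalizer_US hS hR (T := invSet D v.reverse) (fun r hr => hr.1.1) hh)
  let φ : ↥(S.US (invSet D v.reverse)) ≃ ↥(S.US (invSet D v.reverse)) :=
    { toFun := fun u => ⟨h * u * h⁻¹, (hn _).1 u.2⟩
      invFun := fun u => ⟨h⁻¹ * u * h, (hn _).2 (by simp [mul_assoc])⟩
      left_inv := fun u => Subtype.ext (by simp [mul_assoc])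
      right_inv := fun u => Subtype.ext (by simp [mul_assoc]) }
  refine Fintype.sum_equiv φ _ _ fun u => ?_
  rw [← Module.End.mul_apply, ← map_mul, twist, ← map_smul, ← hx _ (S.nW_inv_conj_Hbar hS hR v hh),
    ← Module.End.mul_apply, ← map_mul]
  simp [φ, mul_assoc]

theorem Sw_isFix (hS : Rules D F) (hR : RootTable D len) (v : List (Fin D.rank)) {x : V}
    (hx : S.IsFix ρ x) : S.IsFix ρ (S.Sw ρ v x) := by
  obtain ⟨h, hh, v0, hv0, -, e⟩ := S.exists_reduced hS hR v
  have hact := S.act_eq_of_eq hS hR (one_mem _) hh (by rw [one_mul]; exact e)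
  rw [S.Sw_congr ρ hS hR hact hh e]
  refine S.isFix_rho_Hbar ρ hS hR ?_ hh
  clear e hact
  induction v0 with
  | nil => rwa [S.Sw_nil ρ hR]
  | cons i w ih =>
    obtain ⟨h1, h2⟩ := hR.reduced_tail hv0
    rw [← S.T_Sw ρ hS hR i w h2]
    exact S.T_isFix ρ hS hR i (ih h1)

theorem twist_congr_mem (hS : Rules D F) (hR : RootTable D len) (hM : S.HMul) (χ : G → k) {c : G}
    (hc : c ∈ S.Hbar) (g : G) {h : G} (hh : h ∈ S.Hbar) : twist χ (c * g) h = twist χ g h := by
  simp only [twist]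
  congr 1
  have e : c⁻¹ * h * c = h := by
    rw [mul_assoc, S.Hbar_comm hS hR hM h hh c hc, inv_mul_cancel_left]
  rw [mul_inv_rev, show g⁻¹ * c⁻¹ * h * (c * g) = g⁻¹ * (c⁻¹ * h * c) * g by group, e]

theorem T_Sw_desc (hS : Rules D F) (hR : RootTable D len) (hM : S.HMul) (p : ℕ) [Fact p.Prime]
    [CharP F p] [CharP k p] (i : Fin D.rank) (v : List (Fin D.rank))
    (hq : D.IsNegRoot (act D v.reverse (D.simple i))) {χ : G → k} (hχ : S.IsChar χ) {x : V}
    (hx : S.IsFix ρ x) (he : S.IsEig ρ χ x) [Decidable (S.InJ (twist χ (S.nW v)) i)] :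
    S.T ρ i (S.Sw ρ v x) =
      (if S.InJ (twist χ (S.nW v)) i then (-1 : k) else 0) • S.Sw ρ v x := by
  classical
  have hpos := hR.act_pos_of_neg_cons i v hq
  have hact : ∀ r < D.nroots, act D v r = act D (i :: i :: v) r := fun r hr => (hR.act_cons_cons i v hr).symm
  obtain ⟨c, hc, e⟩ := S.nW_congr hS hR hact
  set y := S.Sw ρ (i :: v) x with hy
  have hyf : S.IsFix ρ y := S.Sw_isFix ρ hS hR _ hx
  have hye := S.Sw_isEig ρ hS hR (i :: v) he
  have hyχ := hχ.twist_nW S hS hR (i :: v)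
  have e1 : S.Sw ρ v x = twist (twist χ (S.nW (i :: v))) (S.nI i) c • S.T ρ i y := by
    rw [S.Sw_congr ρ hS hR hact hc e, ← S.T_Sw ρ hS hR i (i :: v) hpos, ← hy,
      S.T_isEig ρ hS hR i hye c hc]
  have hiff : S.InJ (twist χ (S.nW v)) i ↔ S.InJ (twist χ (S.nW (i :: v))) i := by
    rw [← S.inJ_twist_nI hR hM (twist χ (S.nW (i :: v))) i, ← twist_mul, ← nW_cons]
    have : ∀ d : F, d ≠ 0 → twist χ (S.nW v) (S.hEl (D.simple i) d) =
        twist χ (S.nW (i :: i :: v)) (S.hEl (D.simple i) d) := fun d hd => by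
      rw [e, S.twist_congr_mem hS hR hM χ hc _ (S.hEl_simple_mem i hd)]
    exact ⟨fun h d hd => (this d hd).symm.trans (h d hd), fun h d hd => (this d hd).trans (h d hd)⟩
  rw [e1, map_smul, S.T_T ρ hS hR hM p i hyχ hyf hye, smul_comm]
  simp only [hiff]

end Sys

end Cfsg.Agent.ChevGrp
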