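import Cfsg.Agent.ChevGrp.WeightOps
import Cfsg.Agent.ModRep.Basic
import Mathlib.RepresentationTheory.Basic

/-!
Weights of irreducible representations in the defining characteristic (owner: helper32).
-/

set_option linter.style.haveILetI false

namespace Cfsg.Agent.ChevGrp

open Cfsg.Lie
open scoped MatrixGroups
open ModRep (IsInv Irr)

namespace Sys

variable {D : ChevalleyDatum} {F : Type*} [Field F] [Fintype F] {G : Type*} [Group G] [Finite G]
  (S : Sys D F G) {len : ℕ → ℕ} {k : Type*} [Field k] {V : Type*} [AddCommGroup V] [Module k V]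
  (ρ : Representation k G V)

/-- A weight vector. -/
def IsWeight (χ : G → k) (K : Finset (Fin D.rank)) (v : V) : Prop :=
  v ≠ 0 ∧ S.IsChar χ ∧ S.IsFix ρ v ∧ S.IsEig ρ χ v ∧ (∀ i ∈ K, S.InJ χ i) ∧
    ∀ i : Fin D.rank, S.T ρ i v = (if i ∈ K then (-1 : k) else 0) • v

theorem card_US_eq_pow (hR : RootTable D len) (p : ℕ) [hp : Fact p.Prime] [CharP F p]
    {φ : (Fin D.rank → ℤ) →+ ℤ} {T : Set ℕ} (hT : UClosed D len φ T) :
    IsPGroup p ↥(S.US T) := by
  obtain ⟨n, -, hn⟩ := FiniteField.card F p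
  refine IsPGroup.of_card (n := n * Nat.card T) ?_
  rw [S.card_US hR hT, Nat.card_eq_fintype_card, hn, pow_mul]

theorem exists_weight [FiniteDimensional k V] [IsAlgClosed k] [Nontrivial V] (hS : Rules D F)
    (hR : RootTable D len) (hM : S.HMul) (p : ℕ) [Fact p.Prime] [CharP F p] [CharP k p] :
    ∃ (χ : G → k) (K : Finset (Fin D.rank)) (v : V), S.IsWeight ρ χ K v := by
  classical
  let W : Submodule k V :=
    { carrier := {v | S.IsFix ρ v}
      add_mem' := fun {a b} ha hb u hu => by rw [map_add, ha u hu, hb u hu]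
      zero_mem' := fun u _ => map_zero _
      smul_mem' := fun c a ha => ha.smul S ρ c }
  have hW : W ≠ ⊥ := by
    obtain ⟨x, hx⟩ := exists_ne (0 : V)
    obtain ⟨w, -, hw0, hw⟩ := ModRep.exists_fixed_vector p ρ
      (S.card_US_eq_pow hR p hR.posSet_closed) hx
    exact (Submodule.ne_bot_iff _).2 ⟨w, hw, hw0⟩
  obtain ⟨x, hx, hx0, χ₀, hχ₀⟩ := ModRep.exists_common_eigen ρ (S.Hbar_comm hS hR hM) hW
    fun a ha v hv => S.isFix_rho_Hbar ρ hS hR hv ha
  let χ : G → k := fun g => if h : g ∈ S.Hbar then (χ₀ ⟨g, h⟩ : k) else 0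
  have hχ : S.IsChar χ := by
    refine ⟨?_, fun a ha b hb => ?_⟩
    · simp only [χ, dif_pos (one_mem S.Hbar)]
      rw [show (⟨1, one_mem S.Hbar⟩ : S.Hbar) = 1 from rfl, map_one, Units.val_one]
    · simp only [χ, dif_pos (mul_mem ha hb), dif_pos ha, dif_pos hb, ← Units.val_mul, ← map_mul]
      rfl
  have he : S.IsEig ρ χ x := fun h hh => by
    simp only [χ, dif_pos hh]
    exact hχ₀ ⟨h, hh⟩
  have hbd : ∀ w : List (Fin D.rank), invCount D w ≤ D.nroots := fun w => by
    refine le_trans (Finset.card_filter_le _ _) ?_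
    simp
  have hex : ∃ n, ∃ w : List (Fin D.rank),
      Reduced D w ∧ S.Sw ρ w x ≠ 0 ∧ invCount D w = D.nroots - n :=
    ⟨D.nroots, [], reduced_nil D hR, by rwa [S.Sw_nil ρ hR], by rw [Nat.sub_self]; exact reduced_nil D hR⟩
  obtain ⟨w, hw, hw0, hn⟩ := Nat.find_spec hex
  set y := S.Sw ρ w x
  refine ⟨twist χ (S.nW w), Finset.univ.filter fun i =>
      D.IsNegRoot (act D w.reverse (D.simple i)) ∧ S.InJ (twist χ (S.nW w)) i,
    y, hw0, hχ.twist_nW S hS hR w, S.Sw_isFix ρ hS hR w hx, S.Sw_isEig ρ hS hR w he,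
    fun i hi => (Finset.mem_filter.1 hi).2.2, fun i => ?_⟩
  rcases hR.sign _ (hR.act_lt w.reverse (hR.simple_lt i i.2)) with hp | hq
  · rw [if_neg (fun h => hR.not_pos_and_neg hp (Finset.mem_filter.1 h).2.1), zero_smul]
    by_contra h
    rw [S.T_Sw ρ hS hR i w hp] at h
    have h1 := hR.invCount_cons_pos i w hp
    have h2 := hbd (i :: w)
    exact Nat.find_min hex (m := D.nroots - invCount D (i :: w)) (by omega)
      ⟨i :: w, hR.reduced_cons hw hp, h, by omega⟩
  · rw [S.T_Sw_desc ρ hS hR hM p i w hq hχ hx he]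
    simp [hq, y]

/-- The span of the translates by `Vbar`. -/
def VSpan (v : V) : Submodule k V := Submodule.span k {y | ∃ g ∈ S.Vbar, y = ρ g v}

theorem mem_VSpan (v : V) : v ∈ S.VSpan ρ v := Submodule.subset_span ⟨1, one_mem _, by simp⟩

theorem neg_split (hR : RootTable D len) (i : Fin D.rank) {g : G} (hg : g ∈ S.Vbar) :
    ∃ a ∈ S.US (degPos D len (-outHom D i)), a ∈ S.Vbar ∧
      ∃ t : F, g = a * S.x (D.neg (D.simple i)) t := by
  have hp := hR.simple_lt i i.2
  have hq := hR.neg_lt _ hp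
  have hset : degPos D len (-outHom D i) = negSet D \ {D.neg (D.simple i)} := by
    ext r
    refine ⟨fun ⟨hr, h⟩ => ?_, fun ⟨hr, hne⟩ => ⟨hr.1, ?_⟩⟩
    · have hr' : D.neg r ∈ degPos D len (outHom D i) :=
        ⟨hR.neg_lt r hr, by rw [hR.deg_neg _ hr]; simpa using h⟩
      rw [hR.degPos_outHom i] at hr'
      refine ⟨(hR.pos_neg_iff hr).1 hr'.1, fun e => hr'.2 ?_⟩
      rw [(e : r = D.neg (D.simple i)), hR.neg_neg_root hp]
      rfl
    · have := outHom_pos hR i ((hR.pos_neg_iff hr.1).2 hr) fun e => hne (by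
        rw [Set.mem_singleton_iff, ← e, hR.neg_neg_root hr.1])
      rw [hR.deg_neg _ hr.1] at this
      simpa using this
  have hA : UClosed D len (-htHom D) (degPos D len (-outHom D i)) :=
    hR.negSet_closed.subset_closed (fun r hr => (hset ▸ hr).1)
      fun r hr s hs hne c hc => (hR.degPos_closed _).closed r hr s hs hne c hc
  have hB : UClosed D len (-htHom D) ({D.neg (D.simple i)} : Set ℕ) :=
    hR.negSet_closed.subset_closed (fun r hr => by rw [Set.mem_singleton_iff.1 hr]; exact hR.neg_simple_isNeg i)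
      fun r hr s hs hne => absurd ((Set.mem_singleton_iff.1 hs).trans (Set.mem_singleton_iff.1 hr).symm) hne
  obtain ⟨a, ha, b, hb, rfl⟩ := S.US_eq_mul hR hR.negSet_closed hA hB
    (by
      rw [hset]
      exact Set.sdiff_union_of_subset (fun r hr => by
        rw [Set.mem_singleton_iff.1 hr]; exact hR.neg_simple_isNeg i))
    (by rw [hset]; exact Set.disjoint_sdiff_left) hg
  obtain ⟨t, ht'⟩ := S.exists_coef hR hB (L := [D.neg (D.simple i)])
    ⟨List.nodup_singleton _, fun r => List.mem_singleton⟩ hb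
  exact ⟨a, ha, S.US_mono (fun r hr => (hset ▸ hr).1) ha, t (D.neg (D.simple i)),
    by rw [ht', P_cons, P_nil, mul_one]⟩

theorem rankOne_le_normalizer_neg (hR : RootTable D len) (i : Fin D.rank) :
    S.rankOne i ≤ Subgroup.normalizer (S.US (degPos D len (-outHom D i)) : Set G) :=
  S.rankOne_le_normalizer hR i _ (by simp [outHom_simple hR i])

theorem x_neg_eq (hR : RootTable D len) (i : Fin D.rank) (r : F) :
    S.x (D.neg (D.simple i)) r = S.x (D.simple i) r⁻¹ * (S.hEl (D.simple i) (-r⁻¹) * S.nI i) *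
      S.x (D.simple i) r⁻¹ := by
  have hp := hR.simple_lt i i.2
  rw [nI, ← S.nEl_eq hR hp, nEl]
  have e : S.x (D.simple i) r⁻¹ * S.x (D.simple i) (-r⁻¹) = 1 := by
    rw [S.x_add _ hp, add_neg_cancel, S.x_zero hp]
  have e2 : S.x (D.simple i) (-r⁻¹) * S.x (D.simple i) r⁻¹ = 1 := by
    rw [S.x_add _ hp, neg_add_cancel, S.x_zero hp]
  rw [inv_neg, inv_inv, neg_neg,
    show ∀ a b c : G, a * (b * c * b) * a = (a * b) * c * (b * a) from fun a b c => by group, e, e2,
    one_mul, mul_one]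

theorem rankOne_span (hS : Rules D F) (hR : RootTable D len) (hM : S.HMul) (i : Fin D.rank)
    {χ : G → k} (hχ : S.IsChar χ) {v : V} (hv : S.IsFix ρ v) (he : S.IsEig ρ χ v) {c : k}
    (hT : S.T ρ i v = c • v) (t s : F) :
    ρ (S.x (D.simple i) t * S.x (D.neg (D.simple i)) s) v ∈
      Submodule.span k (Set.range fun r : F => ρ (S.x (D.neg (D.simple i)) r) v) := by
  classical
  have hp := hR.simple_lt i i.2
  set Y := Submodule.span k (Set.range fun r : F => ρ (S.x (D.neg (D.simple i)) r) v)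
  have hY : ∀ r, ρ (S.x (D.neg (D.simple i)) r) v ∈ Y := fun r => Submodule.subset_span ⟨r, rfl⟩
  have hvY : v ∈ Y := by
    have := hY 0
    rwa [S.x_zero (hR.neg_lt _ hp), map_one, Module.End.one_apply] at this
  have hUx : ∀ t, S.x (D.simple i) t ∈ S.Ubar := fun t => S.x_mem_US (hR.simple_pos i) t
  -- the key computation
  have hneg : ∀ r : F, r ≠ 0 → ρ (S.x (D.neg (D.simple i)) r) v =
      χ (S.hEl (D.simple i) (-r⁻¹))⁻¹ • ρ (S.x (D.simple i) r⁻¹ * S.nI i) v := by
    intro r hr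
    have h0 : -r⁻¹ ≠ 0 := neg_ne_zero.2 (inv_ne_zero hr)
    have hh := S.hEl_simple_mem i h0
    rw [S.x_neg_eq hR i r,
      show S.x (D.simple i) r⁻¹ * (S.hEl (D.simple i) (-r⁻¹) * S.nI i) * S.x (D.simple i) r⁻¹ =
        S.x (D.simple i) r⁻¹ * S.nI i * ((S.hEl (D.simple i) (-r⁻¹))⁻¹ * S.x (D.simple i) r⁻¹) by
        rw [← S.nI_inv_conj_hEl hR hM i h0]; group,
      map_mul ρ (_ * S.nI i), Module.End.mul_apply, map_mul ρ (S.hEl _ _)⁻¹, Module.End.mul_apply,
      hv _ (hUx _), he _ (inv_mem hh), map_smul]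
  have hxn : ∀ r : F, ρ (S.x (D.simple i) r * S.nI i) v ∈ Y := by
    have h1 : ∀ r : F, r ≠ 0 → ρ (S.x (D.simple i) r * S.nI i) v ∈ Y := by
      intro r hr
      have h := hneg r⁻¹ (inv_ne_zero hr)
      rw [inv_inv] at h
      have hne : χ (S.hEl (D.simple i) (-r))⁻¹ ≠ 0 :=
        hχ.ne_zero S (inv_mem (S.hEl_simple_mem i (neg_ne_zero.2 hr)))
      exact (Submodule.smul_mem_iff _ hne).1 (h ▸ hY r⁻¹)
    intro r
    by_cases hr : r = 0
    · subst hr
      have h := S.T_apply ρ i v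
      rw [hT, Finset.sum_eq_add_sum_sdiff_singleton_of_mem (Finset.mem_univ (0 : F))] at h
      rw [eq_sub_of_add_eq h.symm]
      exact Y.sub_mem (Y.smul_mem c hvY) (Y.sum_mem fun r hr => h1 r (by simpa using hr))
    · exact h1 r hr
  by_cases hs : s = 0
  · rw [hs, S.x_zero (hR.neg_lt _ hp), mul_one, hv _ (hUx t)]
    exact hvY
  · rw [map_mul, Module.End.mul_apply, hneg s hs, map_smul, ← Module.End.mul_apply, ← map_mul, ← mul_assoc,
      S.x_add _ hp]
    exact Y.smul_mem _ (hxn _)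

theorem isInv_VSpan (hS : Rules D F) (hR : RootTable D len) (hM : S.HMul) (hG : S.Gbar = ⊤)
    {χ : G → k} (hχ : S.IsChar χ) {v : V} (hv : S.IsFix ρ v) (he : S.IsEig ρ χ v)
    (hT : ∀ i : Fin D.rank, ∃ c : k, S.T ρ i v = c • v) : IsInv ρ (S.VSpan ρ v) := by
  set W := S.VSpan ρ v
  have hV : ∀ g ∈ S.Vbar, ∀ y ∈ W, ρ g y ∈ W := by
    intro g hg y hy
    have h : W ≤ W.comap (ρ g) := by
      refine Submodule.span_le.2 ?_
      rintro _ ⟨a, ha, rfl⟩
      exact Submodule.subset_span ⟨g * a, mul_mem hg ha, by simp⟩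
    exact h hy
  have hP : ∀ (i : Fin D.rank) (t : F), ∀ y ∈ W, ρ (S.x (D.simple i) t) y ∈ W := by
    intro i t y hy
    have h : W ≤ W.comap (ρ (S.x (D.simple i) t)) := by
      refine Submodule.span_le.2 ?_
      rintro _ ⟨g, hg, rfl⟩
      obtain ⟨a, ha, -, s, rfl⟩ := S.neg_split hR i hg
      have hn := Subgroup.mem_normalizer_iff.1 (S.rankOne_le_normalizer_neg hR i
        (Subgroup.subset_closure ⟨t, Or.inl rfl⟩)) a
      have ha' : S.x (D.simple i) t * a * (S.x (D.simple i) t)⁻¹ ∈ S.Vbar := by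
        refine S.US_mono (fun r hr => (hR.neg_iff_ht hr.1).2 ?_) (hn.1 ha)
        by_contra hcon
        rcases hR.sign r hr.1 with hp | hn
        · have h2 := hr.2
          simp only [AddMonoidHom.neg_apply] at h2
          by_cases e : r = D.simple i
          · rw [e, outHom_simple hR i] at h2; omega
          · have := outHom_pos hR i hp e; omega
        · exact hcon ((hR.neg_iff_ht hr.1).1 hn)
      obtain ⟨c, hc⟩ := hT i
      have hy' := S.rankOne_span ρ hS hR hM i hχ hv he hc t s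
      show ρ (S.x (D.simple i) t) (ρ (a * S.x (D.neg (D.simple i)) s) v) ∈ W
      rw [← Module.End.mul_apply, ← map_mul,
        show S.x (D.simple i) t * (a * S.x (D.neg (D.simple i)) s) =
          (S.x (D.simple i) t * a * (S.x (D.simple i) t)⁻¹) * (S.x (D.simple i) t * S.x (D.neg (D.simple i)) s) by
          group, map_mul ρ (_ * (S.x (D.simple i) t)⁻¹), Module.End.mul_apply]
      refine hV _ ha' _ ?_
      refine (Submodule.span_le.2 ?_ : _ ≤ W) hy'
      rintro _ ⟨r, rfl⟩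
      exact Submodule.subset_span ⟨_, S.x_mem_US (hR.neg_simple_isNeg i) r, rfl⟩
    exact h hy
  have hN : ∀ (i : Fin D.rank) (t : F), ∀ y ∈ W, ρ (S.x (D.neg (D.simple i)) t) y ∈ W :=
    fun i t => hV _ (S.x_mem_US (hR.neg_simple_isNeg i) t)
  let St : Subgroup G :=
    { carrier := {g | (∀ y ∈ W, ρ g y ∈ W) ∧ ∀ y ∈ W, ρ g⁻¹ y ∈ W}
      one_mem' := by simp
      mul_mem' := fun {a b} ha hb => ⟨fun y hy => by
          rw [map_mul, Module.End.mul_apply]; exact ha.1 _ (hb.1 _ hy),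
        fun y hy => by rw [mul_inv_rev, map_mul, Module.End.mul_apply]; exact hb.2 _ (ha.2 _ hy)⟩
      inv_mem' := fun {a} ha => ⟨ha.2, by rw [inv_inv]; exact ha.1⟩ }
  have hSp : ∀ (i : Fin D.rank) (t : F), S.x (D.simple i) t ∈ St := fun i t =>
    ⟨hP i t, by rw [S.x_inv (hR.simple_lt i i.2)]; exact hP i _⟩
  have hSn : ∀ (i : Fin D.rank) (t : F), S.x (D.neg (D.simple i)) t ∈ St := fun i t =>
    ⟨hN i t, by rw [S.x_inv (hR.neg_lt _ (hR.simple_lt i i.2))]; exact hN i _⟩
  have hnW : ∀ w, S.nW w ∈ St := fun w => list_prod_mem fun g hg => by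
    obtain ⟨i, -, rfl⟩ := List.mem_map.1 hg
    exact mul_mem (mul_mem (hSp i _) (hSn i _)) (hSp i _)
  have htop : (⊤ : Subgroup G) ≤ St := by
    rw [← hG, Gbar, Subgroup.closure_le]
    rintro _ ⟨r, hr, t, rfl⟩
    obtain ⟨w, i, rfl⟩ := hR.exists_act_simple hr
    obtain ⟨a, ha, hwa⟩ := S.conjP_nW hS hR w
    have hp := hR.simple_lt i i.2
    have e := hwa _ hp (t / a (D.simple i))
    rw [mul_div_cancel₀ _ (right_ne_zero_of_mul_eq_one (ha _ hp))] at e
    rw [SetLike.mem_coe, ← e]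
    exact mul_mem (mul_mem (hnW w) (hSp i _)) (inv_mem (hnW w))
  exact fun g y hy => (htop (Subgroup.mem_top g)).1 y hy

theorem VSpan_eq_top (hS : Rules D F) (hR : RootTable D len) (hM : S.HMul) (hG : S.Gbar = ⊤)
    (hirr : Irr ρ) {χ : G → k} {K : Finset (Fin D.rank)} {v : V} (h : S.IsWeight ρ χ K v) :
    S.VSpan ρ v = ⊤ :=
  (hirr _ (S.isInv_VSpan ρ hS hR hM hG h.2.1 h.2.2.1 h.2.2.2.1 fun i => ⟨_, h.2.2.2.2.2 i⟩)).resolve_left
    fun e => h.1 (by simpa [e] using S.mem_VSpan ρ v)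

/-- A functional invariant under `Vbar`, non-zero at every weight vector. -/
theorem exists_coinvariant (hS : Rules D F) (hR : RootTable D len) (hM : S.HMul) (hG : S.Gbar = ⊤)
    (p : ℕ) [Fact p.Prime] [CharP F p] [CharP k p] [Nontrivial V] (hirr : Irr ρ) :
    ∃ f : V →ₗ[k] k, (∀ g ∈ S.Vbar, ∀ y, f (ρ g y) = f y) ∧
      ∀ (χ : G → k) (K : Finset (Fin D.rank)) (v : V), S.IsWeight ρ χ K v → f v ≠ 0 := by
  obtain ⟨x, hx⟩ := exists_ne (0 : V)
  obtain ⟨f₀, hf₀⟩ := LinearMap.exists_leftInverse_of_injective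
    (LinearMap.toSpanSingleton k V x) (LinearMap.ker_toSpanSingleton (R := k) (M := V) hx)
  have hf₀' : f₀ ≠ 0 := fun e => by
    have := LinearMap.congr_fun hf₀ (1 : k)
    rw [e] at this
    simp at this
  obtain ⟨f, -, hf0, hf⟩ := ModRep.exists_fixed_vector (k := k) p ρ.dual
    (S.card_US_eq_pow hR p hR.negSet_closed) hf₀'
  have hco : ∀ g ∈ S.Vbar, ∀ y, f (ρ g y) = f y := fun g hg y => by
    have := LinearMap.congr_fun (hf g⁻¹ (inv_mem hg)) y
    rwa [Representation.dual_apply, Module.Dual.transpose_apply, LinearMap.comp_apply, inv_inv] at this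
  refine ⟨f, hco, fun χ K v h hv => hf0 ?_⟩
  have hle : S.VSpan ρ v ≤ LinearMap.ker f := by
    refine Submodule.span_le.2 ?_
    rintro _ ⟨g, hg, rfl⟩
    rw [SetLike.mem_coe, LinearMap.mem_ker, hco g hg, hv]
  rw [S.VSpan_eq_top ρ hS hR hM hG hirr h, top_le_iff, LinearMap.ker_eq_top] at hle
  exact hle

theorem coinvariant_prop (hS : Rules D F) (hR : RootTable D len) (hM : S.HMul) (hG : S.Gbar = ⊤)
    (hirr : Irr ρ) {χ : G → k} {K : Finset (Fin D.rank)} {v : V} (h : S.IsWeight ρ χ K v)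
    {f f' : V →ₗ[k] k} (hf : ∀ g ∈ S.Vbar, ∀ y, f (ρ g y) = f y)
    (hf' : ∀ g ∈ S.Vbar, ∀ y, f' (ρ g y) = f' y) (y : V) : f v * f' y = f' v * f y := by
  have hle : S.VSpan ρ v ≤ LinearMap.ker (f v • f' - f' v • f) := by
    refine Submodule.span_le.2 ?_
    rintro _ ⟨g, hg, rfl⟩
    simp [hf g hg, hf' g hg, mul_comm]
  have := hle (x := y) (by rw [S.VSpan_eq_top ρ hS hR hM hG hirr h]; trivial)
  simpa [sub_eq_zero] using this

/-- An irreducible representation has one weight. -/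
theorem weight_unique (hS : Rules D F) (hR : RootTable D len) (hM : S.HMul) (hG : S.Gbar = ⊤)
    (p : ℕ) [Fact p.Prime] [CharP F p] [CharP k p] [Nontrivial V] (hirr : Irr ρ)
    {χ χ' : G → k} {K K' : Finset (Fin D.rank)} {v v' : V} (h : S.IsWeight ρ χ K v)
    (h' : S.IsWeight ρ χ' K' v') : (∀ a ∈ S.Hbar, χ a = χ' a) ∧ K = K' := by
  obtain ⟨f, hf, hfne⟩ := S.exists_coinvariant ρ hS hR hM hG p hirr
  have h0 := hfne χ K v h
  have h0' := hfne χ' K' v' h'
  refine ⟨fun a ha => ?_, ?_⟩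
  · have hco : ∀ g ∈ S.Vbar, ∀ y, (f ∘ₗ ρ a) (ρ g y) = (f ∘ₗ ρ a) y := by
      intro g hg y
      have hg' : a * g * a⁻¹ ∈ S.Vbar :=
        (Subgroup.mem_normalizer_iff.1 (S.Hbar_le_normalizer_US hS hR (T := negSet D) (fun r hr => hr.1) ha) g).1 hg
      simp only [LinearMap.comp_apply]
      rw [← Module.End.mul_apply, ← map_mul, show a * g = (a * g * a⁻¹) * a by group, map_mul,
        Module.End.mul_apply, hf _ hg']
    have e := S.coinvariant_prop ρ hS hR hM hG hirr h hf hco v'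
    simp only [LinearMap.comp_apply, h.2.2.2.1 a ha, h'.2.2.2.1 a ha, map_smul, smul_eq_mul] at e
    have e2 : (χ' a - χ a) * (f v * f v') = 0 := by linear_combination e
    exact (sub_eq_zero.1 ((mul_eq_zero.1 e2).resolve_right (mul_ne_zero h0 h0'))).symm
  · ext i
    have hp := hR.simple_lt i i.2
    obtain ⟨b, hb, hib⟩ := S.conjP_nI hS hR i
    have hco : ∀ g ∈ S.Vbar, ∀ y, (f ∘ₗ S.T ρ i) (ρ g y) = (f ∘ₗ S.T ρ i) y := by
      intro g hg y
      obtain ⟨a, ha, haV, s, rfl⟩ := S.neg_split hR i hg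
      have hset : ∀ c : F, S.x (D.simple i) c * S.nI i * a * (S.x (D.simple i) c * S.nI i)⁻¹ ∈ S.Vbar := by
        intro c
        have hmem : S.x (D.simple i) c * S.nI i ∈ S.rankOne i :=
          mul_mem (Subgroup.subset_closure ⟨c, Or.inl rfl⟩) (S.nEl_mem_rankOne i 1)
        refine S.US_mono (fun r hr => ?_)
          ((Subgroup.mem_normalizer_iff.1 (S.rankOne_le_normalizer_neg hR i hmem) a).1 ha)
        rcases hR.sign r hr.1 with hp | hn
        · exfalso
          have h2 := hr.2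
          simp only [AddMonoidHom.neg_apply] at h2
          by_cases e : r = D.simple i
          · rw [e, outHom_simple hR i] at h2; omega
          · have := outHom_pos hR i hp e; omega
        · exact hn
      have e := hib _ (hR.neg_lt _ hp) s
      rw [act_singleton, hR.reflect_neg i.2 hp, hR.reflect_simple i.2, hR.neg_neg_root hp] at e
      simp only [LinearMap.comp_apply]
      rw [T_apply, T_apply, map_sum, map_sum]
      refine Fintype.sum_equiv (Equiv.addRight (b (D.neg (D.simple i)) * s)) _ _ fun c => ?_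
      have e3 : S.x (D.simple i) c * S.nI i * (a * S.x (D.neg (D.simple i)) s) =
          (S.x (D.simple i) c * S.nI i * a * (S.x (D.simple i) c * S.nI i)⁻¹) *
            (S.x (D.simple i) (c + b (D.neg (D.simple i)) * s) * S.nI i) := by
        rw [← S.x_add _ hp, ← e]
        group
      rw [← Module.End.mul_apply, ← map_mul, e3, map_mul, Module.End.mul_apply, hf _ (hset c)]
      rfl
    have e := S.coinvariant_prop ρ hS hR hM hG hirr h hf hco v'
    simp only [LinearMap.comp_apply, h.2.2.2.2.2 i, h'.2.2.2.2.2 i, map_smul, smul_eq_mul] at e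
    have e2 : ((if i ∈ K' then (-1 : k) else 0) - (if i ∈ K then (-1 : k) else 0)) * (f v * f v') = 0 := by
      linear_combination e
    have e4 := sub_eq_zero.1 ((mul_eq_zero.1 e2).resolve_right (mul_ne_zero h0 h0'))
    by_cases h1 : i ∈ K <;> by_cases h2 : i ∈ K' <;> simp_all

end Sys

/-- The product of two representations. -/
noncomputable def prodRep {k G V W : Type*} [Field k] [Group G] [AddCommGroup V] [Module k V]
    [AddCommGroup W] [Module k W] (ρ : Representation k G V) (σ : Representation k G W) :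
    Representation k G (V × W) where
  toFun g := (ρ g).prodMap (σ g)
  map_one' := LinearMap.ext fun x => by simp
  map_mul' a b := LinearMap.ext fun x => by simp [Module.End.mul_apply]

namespace Sys

variable {D : ChevalleyDatum} {F : Type*} [Field F] [Fintype F] {G : Type*} [Group G] [Finite G]
  (S : Sys D F G) {len : ℕ → ℕ} {k : Type*} [Field k] {V : Type*} [AddCommGroup V] [Module k V]
  (ρ : Representation k G V) {W : Type*} [AddCommGroup W] [Module k W] (σ : Representation k G W)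

/-- Irreducible representations with the same weight are equivalent. -/
theorem exists_intertwiner (hS : Rules D F) (hR : RootTable D len) (hM : S.HMul) (hG : S.Gbar = ⊤)
    (p : ℕ) [Fact p.Prime] [CharP F p] [CharP k p] [Nontrivial V] [Nontrivial W] (hirr : Irr ρ)
    (hirr' : Irr σ) {χ χ' : G → k} (hχ : ∀ a ∈ S.Hbar, χ a = χ' a) {K : Finset (Fin D.rank)} {v : V}
    {w : W} (h : S.IsWeight ρ χ K v) (h' : S.IsWeight σ χ' K w) :
    ∃ e : V →ₗ[k] W, Function.Injective e ∧ ∀ g y, e (ρ g y) = σ g (e y) := by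
  obtain ⟨f, hf, hfne⟩ := S.exists_coinvariant ρ hS hR hM hG p hirr
  obtain ⟨f', hf', hfne'⟩ := S.exists_coinvariant σ hS hR hM hG p hirr'
  set P := prodRep ρ σ
  have hPap : ∀ g (z : V × W), P g z = (ρ g z.1, σ g z.2) := fun g z => rfl
  set z : V × W := (v, w)
  have hfix : S.IsFix P z := fun u hu => by rw [hPap, h.2.2.1 u hu, h'.2.2.1 u hu]
  have heig : S.IsEig P χ z := fun a ha => by
    rw [hPap, h.2.2.2.1 a ha, h'.2.2.2.1 a ha, ← hχ a ha]
    rfl
  have hT : ∀ i : Fin D.rank, ∃ c : k, S.T P i z = c • z := fun i => ⟨_, by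
    refine Eq.trans ?_ (congrArg₂ Prod.mk (h.2.2.2.2.2 i) (h'.2.2.2.2.2 i) : (_ : V × W) = _)
    rw [T_apply, T_apply, T_apply]
    refine Prod.ext ?_ ?_
    · rw [Prod.fst_sum]; rfl
    · rw [Prod.snd_sum]; rfl⟩
  set N := S.VSpan P z
  have hN : IsInv P N := S.isInv_VSpan P hS hR hM hG h.2.1 hfix heig hT
  have hzN : z ∈ N := S.mem_VSpan P z
  have hv0 : ((v, 0) : V × W) ∉ N := by
    intro hmem
    let Fn : V × W →ₗ[k] k := f' w • (f ∘ₗ LinearMap.fst k V W) - f v • (f' ∘ₗ LinearMap.snd k V W)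
    have hle : N ≤ LinearMap.ker Fn := by
      refine Submodule.span_le.2 ?_
      rintro _ ⟨g, hg, rfl⟩
      simp [Fn, hPap, z, hf g hg, hf' g hg, mul_comm]
    have := hle hmem
    simp [Fn, hfne χ K v h, hfne' χ' K w h'] at this
  have hw0 : ((0, w) : V × W) ∉ N := fun hmem => hv0 (by
    have := N.sub_mem hzN hmem
    simpa [z] using this)
  let q : N →ₗ[k] V := LinearMap.fst k V W ∘ₗ N.subtype
  have hqinj : Function.Injective q := by
    rw [← LinearMap.ker_eq_bot]
    have hbot : N.comap (LinearMap.inr k V W) = ⊥ := by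
      refine (hirr' _ fun g y hy => ?_).resolve_right fun e => hw0 ?_
      · have := hN g _ hy
        simpa [hPap] using this
      · have : w ∈ N.comap (LinearMap.inr k V W) := e ▸ trivial
        simpa using this
    rw [eq_bot_iff]
    rintro ⟨⟨a, b⟩, hab⟩ hy
    have ha : a = 0 := by simpa [q] using hy
    subst ha
    have hb : b ∈ N.comap (LinearMap.inr k V W) := by simpa using hab
    rw [hbot, Submodule.mem_bot] at hb
    subst hb
    simp
  have hqsurj : Function.Surjective q := by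
    have hr : LinearMap.range q = ⊤ := by
      refine (hirr _ ?_).resolve_left fun e => ?_
      · rintro g _ ⟨⟨y, hy⟩, rfl⟩
        exact ⟨⟨_, hN g y hy⟩, rfl⟩
      · have : q ⟨z, hzN⟩ ∈ LinearMap.range q := ⟨_, rfl⟩
        rw [e, Submodule.mem_bot] at this
        exact h.1 this
    exact LinearMap.range_eq_top.1 hr
  let E := LinearEquiv.ofBijective q ⟨hqinj, hqsurj⟩
  let e : V →ₗ[k] W := LinearMap.snd k V W ∘ₗ N.subtype ∘ₗ E.symm.toLinearMap
  have hE : ∀ g y, (E.symm (ρ g y) : V × W) = P g (E.symm y : V × W) := by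
    intro g y
    have : E.symm (ρ g y) = ⟨_, hN g _ (E.symm y).2⟩ := by
      apply E.injective
      rw [E.apply_symm_apply]
      show ρ g y = ρ g ((E.symm y : N) : V × W).1
      congr 1
      exact (E.apply_symm_apply y).symm
    rw [this]
  have hint : ∀ g y, e (ρ g y) = σ g (e y) := fun g y => by
    simp only [e, LinearMap.comp_apply, LinearEquiv.coe_coe, Submodule.coe_subtype, hE, LinearMap.snd_apply]
    rfl
  refine ⟨e, ModRep.ker_intertwiner hirr hint fun e0 => h'.1 ?_, hint⟩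
  have hz : E.symm v = ⟨z, hzN⟩ := E.injective (E.apply_symm_apply v)
  have := LinearMap.congr_fun e0 v
  simpa [e, hz, z] using this

end Sys

end Cfsg.Agent.ChevGrp
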